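import Mathlib
set_option autoImplicit false

/-!
Metacyclic groups by generators and relations: `MG m n r t = ⟨a, b | a^m, b^n = a^t, b a b⁻¹ = a^r⟩`.
-/

namespace Cfsg.Agent.H29.Meta

open Subgroup

/-- relators of a metacyclic group -/
def rels (m n r t : ℕ) : Set (FreeGroup Bool) :=
  {FreeGroup.of true ^ m, (FreeGroup.of false) ^ n * (FreeGroup.of true ^ t)⁻¹,
   FreeGroup.of false * FreeGroup.of true * (FreeGroup.of false)⁻¹ * (FreeGroup.of true ^ r)⁻¹}

/-- metacyclic presented group -/
abbrev MG (m n r t : ℕ) := PresentedGroup (rels m n r t)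

variable {m n r t : ℕ}

/-- first generator -/
def gA : MG m n r t := PresentedGroup.of true
/-- second generator -/
def gB : MG m n r t := PresentedGroup.of false

theorem relA : (gA : MG m n r t) ^ m = 1 := by
  have := PresentedGroup.one_of_mem (rels := rels m n r t) (x := FreeGroup.of true ^ m) (by simp [rels])
  rw [map_pow] at this
  exact this

theorem relB : (gB : MG m n r t) ^ n = gA ^ t := by
  have := PresentedGroup.one_of_mem (rels := rels m n r t)
    (x := (FreeGroup.of false) ^ n * (FreeGroup.of true ^ t)⁻¹) (by simp [rels])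
  rw [map_mul, map_inv, map_pow, map_pow, mul_inv_eq_one] at this
  exact this

theorem relC : (gB : MG m n r t) * gA * gB⁻¹ = gA ^ r := by
  have := PresentedGroup.one_of_mem (rels := rels m n r t)
    (x := FreeGroup.of false * FreeGroup.of true * (FreeGroup.of false)⁻¹ * (FreeGroup.of true ^ r)⁻¹)
    (by simp [rels])
  rw [map_mul, map_inv, map_pow, map_mul, map_mul, map_inv, mul_inv_eq_one] at this
  exact this

/-- the universal property -/
def lift {H : Type*} [Group H] (a b : H) (h1 : a ^ m = 1) (h2 : b ^ n = a ^ t)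
    (h3 : b * a * b⁻¹ = a ^ r) : MG m n r t →* H :=
  PresentedGroup.toGroup (f := fun i => if i then a else b) (by
    intro w hw
    rcases hw with rfl | rfl | rfl
    · simpa using h1
    · simp [h2]
    · simp [h3])

theorem lift_A {H : Type*} [Group H] (a b : H) (h1 : a ^ m = 1) (h2 : b ^ n = a ^ t)
    (h3 : b * a * b⁻¹ = a ^ r) : lift a b h1 h2 h3 gA = a := by
  unfold lift gA
  rw [PresentedGroup.toGroup.of]; simp

theorem lift_B {H : Type*} [Group H] (a b : H) (h1 : a ^ m = 1) (h2 : b ^ n = a ^ t)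
    (h3 : b * a * b⁻¹ = a ^ r) : lift a b h1 h2 h3 gB = b := by
  unfold lift gB
  rw [PresentedGroup.toGroup.of]; simp

theorem closure_AB : closure {(gA : MG m n r t), gB} = ⊤ := by
  rw [← PresentedGroup.closure_range_of (rels m n r t)]
  congr 1
  ext x
  constructor
  · rintro (rfl | rfl)
    · exact ⟨true, rfl⟩
    · exact ⟨false, rfl⟩
  · rintro ⟨i, rfl⟩
    cases i
    · right; rfl
    · left; rfl

theorem finite_MG (hm : 0 < m) (hn : 0 < n) : Finite (MG m n r t) := by
  have hAfin : IsOfFinOrder (gA : MG m n r t) := isOfFinOrder_iff_pow_eq_one.2 ⟨m, hm, relA⟩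
  have hBfin : IsOfFinOrder (gB : MG m n r t) := by
    refine isOfFinOrder_iff_pow_eq_one.2 ⟨n * m, Nat.mul_pos hn hm, ?_⟩
    rw [pow_mul, relB, ← pow_mul, mul_comm, pow_mul, relA, one_pow]
  haveI : Finite (zpowers (gA : MG m n r t)) := hAfin.finite_zpowers
  haveI : Finite (zpowers (gB : MG m n r t)) := hBfin.finite_zpowers
  have hnorm : (zpowers (gA : MG m n r t)).Normal := by
    rw [← Subgroup.normalizer_eq_top_iff, eq_top_iff, ← closure_AB, closure_le]
    rintro x (rfl | rfl)
    · exact Subgroup.le_normalizer (mem_zpowers _)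
    · haveI : Finite ((zpowers (gA : MG m n r t) : Subgroup (MG m n r t)) : Set (MG m n r t)) :=
        ‹Finite (zpowers (gA : MG m n r t))›
      apply Subgroup.mem_normalizer_fintype
      rintro y ⟨k, rfl⟩
      refine ⟨r * k, ?_⟩
      simp only
      rw [zpow_mul, zpow_natCast, ← relC, conj_zpow]
  have hsup : zpowers (gB : MG m n r t) ⊔ zpowers gA = ⊤ := by
    rw [eq_top_iff, ← closure_AB, closure_le]
    rintro x (rfl | rfl)
    · exact mem_sup_right (mem_zpowers _)
    · exact mem_sup_left (mem_zpowers _)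
  have hsurj : Function.Surjective
      (fun x : (zpowers (gB : MG m n r t)) × (zpowers (gA : MG m n r t)) => (x.1 : MG m n r t) * x.2) := by
    intro g
    have hg : g ∈ zpowers (gB : MG m n r t) ⊔ zpowers gA := by rw [hsup]; exact mem_top _
    obtain ⟨x, hx, y, hy, rfl⟩ := Subgroup.mem_sup_of_normal_right.1 hg
    exact ⟨⟨⟨x, hx⟩, ⟨y, hy⟩⟩, rfl⟩
  exact Finite.of_surjective _ hsurj

/-- the concrete model -/
theorem exists_model (hm : 0 < m) (hn : 0 < n) (h1 : ((r : ZMod m)) ^ n = 1)
    (h2 : (r : ZMod m) * t = t) :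
    ∃ (W : Type) (_ : Group W) (a b : W), orderOf a = m ∧ b ^ n = a ^ t ∧ b * a * b⁻¹ = a ^ r := by
  haveI : NeZero m := ⟨hm.ne'⟩
  let u : (ZMod m)ˣ := Units.ofPowEqOne (r : ZMod m) n h1 hn.ne'
  have hu : (u : ZMod m) = r := rfl
  let θ : MulAut (Multiplicative (ZMod m)) :=
    AddEquiv.toMultiplicative (DistribMulAction.toAddEquiv (ZMod m) u)
  have hθ : ∀ x : ZMod m, θ (Multiplicative.ofAdd x) = Multiplicative.ofAdd ((r : ZMod m) * x) := by
    intro x; rfl
  let φ : Multiplicative ℤ →* MulAut (Multiplicative (ZMod m)) := zpowersHom _ θ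
  let E := Multiplicative (ZMod m) ⋊[φ] Multiplicative ℤ
  let a0 : E := SemidirectProduct.inl (Multiplicative.ofAdd (1 : ZMod m))
  let b0 : E := SemidirectProduct.inr (Multiplicative.ofAdd (1 : ℤ))
  have ha0 : ∀ k : ℕ, a0 ^ k = SemidirectProduct.inl (Multiplicative.ofAdd (k : ZMod m)) := by
    intro k
    rw [← map_pow]
    congr 1
    rw [← ofAdd_nsmul]; simp
  have hφ1 : φ (Multiplicative.ofAdd (1 : ℤ)) = θ := by
    simp [φ]
  have hbab : b0 * a0 * b0⁻¹ = a0 ^ r := by
    rw [ha0]
    show SemidirectProduct.inr _ * SemidirectProduct.inl _ * (SemidirectProduct.inr _)⁻¹ = _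
    rw [← map_inv, ← SemidirectProduct.inl_aut, hφ1, hθ, mul_one]
  have hθn : ∀ k : ℕ, ∀ x : ZMod m, (θ ^ k) (Multiplicative.ofAdd x) =
      Multiplicative.ofAdd ((r : ZMod m) ^ k * x) := by
    intro k
    induction k with
    | zero => intro x; simp
    | succ k ih =>
      intro x
      rw [pow_succ, MulAut.mul_apply, hθ, ih, pow_succ, mul_assoc]
  have hbn : ∀ x : Multiplicative (ZMod m), b0 ^ n * SemidirectProduct.inl x =
      SemidirectProduct.inl x * b0 ^ n := by
    intro x
    have h3 : b0 ^ n = SemidirectProduct.inr (Multiplicative.ofAdd (1 : ℤ) ^ n) := by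
      rw [map_pow]
    have h4 : (SemidirectProduct.inl (φ (Multiplicative.ofAdd (1 : ℤ) ^ n) x) : E) =
        SemidirectProduct.inr (Multiplicative.ofAdd (1 : ℤ) ^ n) * SemidirectProduct.inl x *
          SemidirectProduct.inr (Multiplicative.ofAdd (1 : ℤ) ^ n)⁻¹ := SemidirectProduct.inl_aut _ _
    rw [map_pow, hφ1] at h4
    have h5 : (θ ^ n) x = x := by
      have := hθn n (Multiplicative.toAdd x)
      rw [h1, one_mul] at this
      exact this
    rw [h5] at h4
    rw [h3]
    calc SemidirectProduct.inr (Multiplicative.ofAdd (1 : ℤ) ^ n) * SemidirectProduct.inl x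
        = (SemidirectProduct.inr (Multiplicative.ofAdd (1 : ℤ) ^ n) * SemidirectProduct.inl x *
          SemidirectProduct.inr (Multiplicative.ofAdd (1 : ℤ) ^ n)⁻¹) *
          SemidirectProduct.inr (Multiplicative.ofAdd (1 : ℤ) ^ n) := by
            rw [map_inv]; group
      _ = _ := by rw [← h4]
  let c : E := (a0 ^ t)⁻¹ * b0 ^ n
  have hbat : b0 * a0 ^ t * b0⁻¹ = a0 ^ t := by
    rw [← conj_pow, hbab, ← pow_mul, ha0, ha0]
    congr 2
    push_cast; exact h2
  have hc_inl : ∀ x : Multiplicative (ZMod m), c * SemidirectProduct.inl x =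
      SemidirectProduct.inl x * c := by
    intro x
    show (a0 ^ t)⁻¹ * b0 ^ n * _ = _ * ((a0 ^ t)⁻¹ * b0 ^ n)
    rw [mul_assoc, hbn, ← mul_assoc, ← mul_assoc]
    congr 1
    rw [ha0, ← map_inv, ← map_mul, ← map_mul, mul_comm]
  have hc_b : c * b0 = b0 * c := by
    show (a0 ^ t)⁻¹ * b0 ^ n * b0 = b0 * ((a0 ^ t)⁻¹ * b0 ^ n)
    have h6 : b0 * (a0 ^ t)⁻¹ = (a0 ^ t)⁻¹ * b0 := by
      have h7 : b0 * a0 ^ t = a0 ^ t * b0 := by
        rw [mul_inv_eq_iff_eq_mul] at hbat; exact hbat
      have h8 : Commute b0 (a0 ^ t) := h7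
      exact h8.inv_right.eq
    rw [← mul_assoc, h6, mul_assoc, mul_assoc, ← pow_succ, ← pow_succ']
  have hc : ∀ e : E, c * e = e * c := by
    intro e
    have he : e = SemidirectProduct.inl e.left * SemidirectProduct.inr e.right :=
      (SemidirectProduct.inl_left_mul_inr_right e).symm
    have hr : (SemidirectProduct.inr e.right : E) = b0 ^ (Multiplicative.toAdd e.right) := by
      show _ = (SemidirectProduct.inr (Multiplicative.ofAdd (1 : ℤ))) ^ _
      rw [← map_zpow, ← ofAdd_zsmul]; simp
    have h9 : Commute c (b0 ^ (Multiplicative.toAdd e.right)) :=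
      Commute.zpow_right (show Commute c b0 from hc_b) _
    rw [he, hr, ← mul_assoc, hc_inl, mul_assoc, h9.eq, mul_assoc]
  have hCn : (zpowers c).Normal := by
    constructor
    rintro x ⟨k, rfl⟩ g
    have h10 : Commute g (c ^ k) := (Commute.zpow_right (show Commute g c from (hc g).symm) k)
    refine ⟨k, ?_⟩
    show c ^ k = g * c ^ k * g⁻¹
    rw [h10.eq, mul_assoc, mul_inv_cancel, mul_one]
  refine ⟨E ⧸ zpowers c, inferInstance, QuotientGroup.mk a0, QuotientGroup.mk b0, ?_, ?_, ?_⟩
  · apply Nat.dvd_antisymm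
    · rw [orderOf_dvd_iff_pow_eq_one, ← QuotientGroup.mk_pow, ha0]
      simp
    · have h11 : ((QuotientGroup.mk a0 : E ⧸ zpowers c)) ^ (orderOf (QuotientGroup.mk a0 : E ⧸ zpowers c)) = 1 :=
        pow_orderOf_eq_one _
      rw [← QuotientGroup.mk_pow, QuotientGroup.eq_one_iff, ha0] at h11
      obtain ⟨k, hk⟩ := h11
      simp only at hk
      have h12 := congrArg (SemidirectProduct.rightHom) hk
      rw [SemidirectProduct.rightHom_inl, map_zpow] at h12
      have h13 : SemidirectProduct.rightHom c = Multiplicative.ofAdd (n : ℤ) := by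
        show SemidirectProduct.rightHom ((a0 ^ t)⁻¹ * b0 ^ n) = _
        rw [map_mul, map_inv, map_pow, map_pow]
        show (SemidirectProduct.rightHom (SemidirectProduct.inl _) ^ t)⁻¹ *
          (SemidirectProduct.rightHom (SemidirectProduct.inr _)) ^ n = _
        rw [SemidirectProduct.rightHom_inl, SemidirectProduct.rightHom_inr, one_pow, inv_one, one_mul,
          ← ofAdd_nsmul]
        simp
      rw [h13, ← ofAdd_zsmul] at h12
      have h14 : k * (n : ℤ) = 0 := by
        have := congrArg Multiplicative.toAdd h12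
        simpa [mul_comm, or_comm] using this
      have hk0 : k = 0 := by
        rcases mul_eq_zero.1 h14 with h | h
        · exact h
        · exfalso; exact hn.ne' (by exact_mod_cast h)
      rw [hk0, zpow_zero] at hk
      have h15 : (SemidirectProduct.inl (Multiplicative.ofAdd
          ((orderOf (QuotientGroup.mk a0 : E ⧸ zpowers c) : ℕ) : ZMod m)) : E) = SemidirectProduct.inl 1 := by
        rw [← hk, map_one]
      have h16 := SemidirectProduct.inl_injective h15
      have h17 : ((orderOf (QuotientGroup.mk a0 : E ⧸ zpowers c) : ℕ) : ZMod m) = 0 := by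
        have := congrArg Multiplicative.toAdd h16
        simpa using this
      exact (ZMod.natCast_eq_zero_iff _ _).1 h17
  · rw [← QuotientGroup.mk_pow, ← QuotientGroup.mk_pow, eq_comm, QuotientGroup.eq]
    exact mem_zpowers c
  · rw [← QuotientGroup.mk_inv, ← QuotientGroup.mk_mul, ← QuotientGroup.mk_mul, ← QuotientGroup.mk_pow, hbab]

theorem orderOf_A (hm : 0 < m) (hn : 0 < n) (h1 : ((r : ZMod m)) ^ n = 1)
    (h2 : (r : ZMod m) * t = t) : orderOf (gA : MG m n r t) = m := by
  obtain ⟨W, _, a, b, ha, hb, hc⟩ := exists_model hm hn h1 h2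
  apply Nat.dvd_antisymm
  · exact orderOf_dvd_of_pow_eq_one relA
  · have := orderOf_map_dvd (lift a b (by rw [← ha]; exact pow_orderOf_eq_one a) hb hc) (gA : MG m n r t)
    rw [lift_A, ha] at this
    exact this

end Cfsg.Agent.H29.Meta
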