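import Cfsg.Agent.H29.MetaA
import Cfsg.Prelude.Def_KGroupFacts
set_option autoImplicit false

/-!
Schur multiplier of metacyclic groups.
-/

namespace Cfsg.Agent.H29.Meta

open Subgroup

/-- the upper bound -/
theorem upper {d m0 ρ n l h g : ℕ} (hd : 0 < d) (hm0 : 0 < m0) (hn : 0 < n)
    (hcop : Nat.Coprime ρ m0)
    (hA : orderOf (gA : MG (d * m0) n (d * ρ + 1) (m0 * l)) = d * m0)
    (he : Nat.gcd (d * m0) (∑ i ∈ Finset.range n, (d * ρ + 1) ^ i) = m0 * h)
    (hg : g = Nat.gcd l h)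
    {Γ : Type} [Group Γ] [Finite Γ] (σ : Γ →* MG (d * m0) n (d * ρ + 1) (m0 * l))
    (hσ : Cfsg.IsStemExtension σ) :
    ∃ π : Multiplicative (ZMod g) →* σ.ker, Function.Surjective π := by
  obtain ⟨hsurj, hcen, hstem⟩ := hσ
  obtain ⟨α, hα⟩ := hsurj gA
  obtain ⟨β, hβ⟩ := hsurj gB
  have hgen : ∀ H : Subgroup Γ, α ∈ H → β ∈ H → σ.ker ≤ H → H = ⊤ := by
    intro H h1 h2 h3
    have h4 : H.map σ = ⊤ := by
      rw [eq_top_iff, ← closure_AB, closure_le]
      rintro x (rfl | rfl)
      · exact ⟨α, h1, hα⟩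
      · exact ⟨β, h2, hβ⟩
    rw [← Subgroup.comap_map_eq_self h3, h4, Subgroup.comap_top]
  have hZ : ∀ z ∈ σ.ker, ∀ y : Γ, y * z = z * y := fun z hz y => (mem_center_iff.1 (hcen hz) y)
  set c : Γ := β * α * β⁻¹ * α⁻¹ with hc
  have hcα : β * α * β⁻¹ = c * α := by rw [hc]; group
  have hσc : σ c = gA ^ (d * ρ) := by
    rw [hc, map_mul, map_mul, map_mul, map_inv, map_inv, hα, hβ, relC, pow_succ, mul_assoc,
      mul_inv_cancel, mul_one]
  -- c = w α^s with w central
  obtain ⟨w, hwk, hcw⟩ : ∃ w ∈ σ.ker, c = w * α ^ (d * ρ) := by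
    refine ⟨c * (α ^ (d * ρ))⁻¹, ?_, by group⟩
    rw [MonoidHom.mem_ker, map_mul, map_inv, map_pow, hα, hσc, mul_inv_cancel]
  have hcomm : Commute c α := by
    rw [hcw]
    exact Commute.mul_left (hZ w hwk α).symm (Commute.pow_self α _)
  have hconj : ∀ k : ℕ, β * α ^ k * β⁻¹ = c ^ k * α ^ k := by
    intro k
    rw [← conj_pow, hcα, hcomm.mul_pow]
  have hβc : β * c * β⁻¹ = c ^ (d * ρ + 1) := by
    have hwα : Commute w (α ^ (d * ρ)) := (hZ w hwk _).symm
    calc β * c * β⁻¹ = (β * w * β⁻¹) * (β * α ^ (d * ρ) * β⁻¹) := by rw [hcw]; group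
      _ = w * (c ^ (d * ρ) * α ^ (d * ρ)) := by
          rw [hconj, hZ w hwk β, mul_assoc w, mul_inv_cancel, mul_one]
      _ = c ^ (d * ρ) * (w * α ^ (d * ρ)) := by
          rw [← mul_assoc, ← hZ w hwk (c ^ (d * ρ)), mul_assoc]
      _ = c ^ (d * ρ + 1) := by rw [← hcw, pow_succ]
  -- N = ⟨c⟩ is normal
  have hnorm : (zpowers c).Normal := by
    rw [← Subgroup.normalizer_eq_top_iff]
    apply hgen
    · haveI : Finite ((zpowers c : Subgroup Γ) : Set Γ) := inferInstance
      apply Subgroup.mem_normalizer_fintype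
      rintro y ⟨k, rfl⟩
      refine ⟨k, ?_⟩
      show c ^ k = α * c ^ k * α⁻¹
      rw [(hcomm.zpow_left k).eq.symm, mul_assoc, mul_inv_cancel, mul_one]
    · haveI : Finite ((zpowers c : Subgroup Γ) : Set Γ) := inferInstance
      apply Subgroup.mem_normalizer_fintype
      rintro y ⟨k, rfl⟩
      refine ⟨((d * ρ + 1 : ℕ) : ℤ) * k, ?_⟩
      show c ^ (((d * ρ + 1 : ℕ) : ℤ) * k) = β * c ^ k * β⁻¹
      rw [← conj_zpow, hβc, zpow_mul, zpow_natCast]
    · intro z hz
      haveI : Finite ((zpowers c : Subgroup Γ) : Set Γ) := inferInstance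
      apply Subgroup.mem_normalizer_fintype
      intro y hy
      have : z * y * z⁻¹ = y := by rw [← hZ z hz y, mul_assoc, mul_inv_cancel, mul_one]
      rw [this]; exact hy
  have hαc : (QuotientGroup.mk α : Γ ⧸ zpowers c) ∈ center (Γ ⧸ zpowers c) := by
    have h1 : (centralizer {(QuotientGroup.mk α : Γ ⧸ zpowers c)}).comap (QuotientGroup.mk' (zpowers c)) = ⊤ := by
      apply hgen
      · rw [mem_comap, mem_centralizer_singleton_iff]; rfl
      · rw [mem_comap, mem_centralizer_singleton_iff]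
        show (QuotientGroup.mk β : Γ ⧸ zpowers c) * QuotientGroup.mk α = QuotientGroup.mk α * QuotientGroup.mk β
        rw [← QuotientGroup.mk_mul, ← QuotientGroup.mk_mul, eq_comm, QuotientGroup.eq]
        have : (α * β)⁻¹ * (β * α) = (α * β)⁻¹ * c * ((α * β)⁻¹)⁻¹ := by rw [hc]; group
        rw [this]
        exact hnorm.conj_mem c (mem_zpowers c) _
      · intro z hz
        rw [mem_comap, mem_centralizer_singleton_iff]
        show (QuotientGroup.mk z : Γ ⧸ zpowers c) * QuotientGroup.mk α = QuotientGroup.mk α * QuotientGroup.mk z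
        rw [← QuotientGroup.mk_mul, ← QuotientGroup.mk_mul, hZ z hz α]
    rw [mem_center_iff]
    intro y
    obtain ⟨y, rfl⟩ := QuotientGroup.mk_surjective y
    have h2 : y ∈ (centralizer {(QuotientGroup.mk α : Γ ⧸ zpowers c)}).comap (QuotientGroup.mk' (zpowers c)) := by
      rw [h1]; exact mem_top _
    rw [mem_comap, mem_centralizer_singleton_iff] at h2
    exact h2
  have hab : ∀ x y : Γ ⧸ zpowers c, x * y = y * x := by
    have h1 : (center (Γ ⧸ zpowers c)).comap (QuotientGroup.mk' (zpowers c)) = ⊤ := by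
      apply hgen
      · exact hαc
      · rw [mem_comap, mem_center_iff]
        have h2 : (centralizer {(QuotientGroup.mk β : Γ ⧸ zpowers c)}).comap (QuotientGroup.mk' (zpowers c)) = ⊤ := by
          apply hgen
          · rw [mem_comap, mem_centralizer_singleton_iff]
            exact (mem_center_iff.1 hαc _).symm
          · rw [mem_comap, mem_centralizer_singleton_iff]; rfl
          · intro z hz
            rw [mem_comap, mem_centralizer_singleton_iff]
            show (QuotientGroup.mk z : Γ ⧸ zpowers c) * QuotientGroup.mk β = QuotientGroup.mk β * QuotientGroup.mk z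
            rw [← QuotientGroup.mk_mul, ← QuotientGroup.mk_mul, hZ z hz β]
        intro y
        obtain ⟨y, rfl⟩ := QuotientGroup.mk_surjective y
        have h3 : y ∈ (centralizer {(QuotientGroup.mk β : Γ ⧸ zpowers c)}).comap (QuotientGroup.mk' (zpowers c)) := by
          rw [h2]; exact mem_top _
        rw [mem_comap, mem_centralizer_singleton_iff] at h3
        exact h3
      · intro z hz
        rw [mem_comap, mem_center_iff]
        intro y
        obtain ⟨y, rfl⟩ := QuotientGroup.mk_surjective y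
        show (QuotientGroup.mk y : Γ ⧸ zpowers c) * QuotientGroup.mk z = QuotientGroup.mk z * QuotientGroup.mk y
        rw [← QuotientGroup.mk_mul, ← QuotientGroup.mk_mul, hZ z hz y]
    intro x y
    obtain ⟨y, rfl⟩ := QuotientGroup.mk_surjective y
    have h3 : y ∈ (center (Γ ⧸ zpowers c)).comap (QuotientGroup.mk' (zpowers c)) := by
      rw [h1]; exact mem_top _
    rw [mem_comap, mem_center_iff] at h3
    exact h3 x
  have hcomm_le : commutator Γ ≤ zpowers c := by
    rw [_root_.commutator_def, commutator_le]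
    intro x _ y _
    have h1 := hab (QuotientGroup.mk x) (QuotientGroup.mk y)
    have h2 : (QuotientGroup.mk (x * y * x⁻¹ * y⁻¹) : Γ ⧸ zpowers c) = 1 := by
      simp only [QuotientGroup.mk_mul, QuotientGroup.mk_inv]
      rw [h1, mul_assoc, mul_assoc, mul_inv_cancel_left, mul_inv_cancel]
    rw [QuotientGroup.eq_one_iff] at h2
    exact h2
  -- orders
  have hcm : c ^ (d * m0) = 1 := by
    have h1 : α ^ (d * m0) ∈ σ.ker := by
      rw [MonoidHom.mem_ker, map_pow, hα, relA]
    have h2 := hconj (d * m0)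
    rw [hZ _ h1 β, mul_assoc, mul_inv_cancel, mul_one] at h2
    exact (mul_eq_right.1 h2.symm)
  have hy : (α ^ (m0 * l))⁻¹ * β ^ n ∈ σ.ker := by
    rw [MonoidHom.mem_ker, map_mul, map_inv, map_pow, map_pow, hα, hβ, relB, inv_mul_cancel]
  have hβn : β ^ n = α ^ (m0 * l) * ((α ^ (m0 * l))⁻¹ * β ^ n) := by group
  have hct : c ^ (m0 * l) = 1 := by
    have h2 := hconj (m0 * l)
    have h3 : Commute β (α ^ (m0 * l)) := by
      have h4 : α ^ (m0 * l) = β ^ n * ((α ^ (m0 * l))⁻¹ * β ^ n)⁻¹ := by group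
      rw [h4]
      apply Commute.mul_right
      · exact Commute.self_pow β n
      · exact (show Commute β ((α ^ (m0 * l))⁻¹ * β ^ n) from hZ _ hy β).inv_right
    rw [h3.eq, mul_assoc, mul_inv_cancel, mul_one] at h2
    exact (mul_eq_right.1 h2.symm)
  have hcS : c ^ (∑ i ∈ Finset.range n, (d * ρ + 1) ^ i) = 1 := by
    have h1 : ∀ k : ℕ, β ^ k * α * (β ^ k)⁻¹ = c ^ (∑ i ∈ Finset.range k, (d * ρ + 1) ^ i) * α := by
      intro k
      induction k with
      | zero => simp
      | succ k ih =>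
        have h2 : β ^ (k + 1) * α * (β ^ (k + 1))⁻¹ = β * (β ^ k * α * (β ^ k)⁻¹) * β⁻¹ := by
          rw [pow_succ']; group
        rw [h2, ih, geom_sum_succ]
        calc β * (c ^ (∑ i ∈ Finset.range k, (d * ρ + 1) ^ i) * α) * β⁻¹
            = (β * c * β⁻¹) ^ (∑ i ∈ Finset.range k, (d * ρ + 1) ^ i) * (β * α * β⁻¹) := by
              rw [conj_pow]; group
          _ = _ := by
              rw [hβc, hcα, ← pow_mul, ← mul_assoc, ← pow_succ]
    have h3 := h1 n
    have h4 : Commute (β ^ n) α := by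
      rw [hβn]
      apply Commute.mul_left
      · exact Commute.pow_self α _
      · exact (show Commute α ((α ^ (m0 * l))⁻¹ * β ^ n) from hZ _ hy α).symm
    rw [h4.eq, mul_assoc, mul_inv_cancel, mul_one] at h3
    exact (mul_eq_right.1 h3.symm)
  have hvk : c ^ m0 ∈ σ.ker := by
    rw [MonoidHom.mem_ker, map_pow, hσc, ← pow_mul]
    have : d * ρ * m0 = (d * m0) * ρ := by ring
    rw [this, pow_mul, relA, one_pow]
  let v : σ.ker := ⟨c ^ m0, hvk⟩
  have hvg : v ^ g = 1 := by
    apply Subtype.ext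
    show (c ^ m0) ^ g = 1
    rw [← pow_mul, ← orderOf_dvd_iff_pow_eq_one]
    have h1 : orderOf c ∣ m0 * h := by
      rw [← he]
      exact Nat.dvd_gcd (orderOf_dvd_of_pow_eq_one hcm) (orderOf_dvd_of_pow_eq_one hcS)
    rw [hg, ← Nat.gcd_mul_left]
    exact Nat.dvd_gcd (orderOf_dvd_of_pow_eq_one hct) h1
  have hall : ∀ z : σ.ker, z ∈ zpowers v := by
    rintro ⟨z, hz⟩
    obtain ⟨j, hj⟩ := hcomm_le (hstem hz)
    simp only at hj
    have h1 : (gA : MG (d * m0) n (d * ρ + 1) (m0 * l)) ^ (((d * ρ : ℕ) : ℤ) * j) = 1 := by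
      rw [zpow_mul, zpow_natCast, ← hσc, ← map_zpow, hj]
      exact hz
    rw [← orderOf_dvd_iff_zpow_eq_one, hA] at h1
    have h2 : (m0 : ℤ) ∣ ρ * j := by
      have h3 : (d : ℤ) * m0 ∣ d * (ρ * j) := by
        push_cast at h1
        rw [← mul_assoc]; exact h1
      exact Int.dvd_of_mul_dvd_mul_left (by exact_mod_cast hd.ne') h3
    have h4 : (m0 : ℤ) ∣ j := by
      have h5 : IsCoprime (m0 : ℤ) (ρ : ℤ) := Nat.isCoprime_iff_coprime.2 hcop.symm
      exact h5.dvd_of_dvd_mul_left h2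
    obtain ⟨i, hi⟩ := h4
    refine ⟨i, ?_⟩
    apply Subtype.ext
    show (((v ^ i : σ.ker)) : Γ) = z
    rw [← hj, hi, zpow_mul, zpow_natCast]
    rfl
  have hcard : Nat.card σ.ker ∣ g := by
    rw [← orderOf_eq_card_of_forall_mem_zpowers hall]
    exact orderOf_dvd_of_pow_eq_one hvg
  haveI : IsCyclic σ.ker := ⟨v, hall⟩
  refine ⟨(zmodCyclicMulEquiv (G := σ.ker) inferInstance).toMonoidHom.comp
    (AddMonoidHom.toMultiplicative (ZMod.castHom hcard (ZMod (Nat.card σ.ker))).toAddMonoidHom), ?_⟩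
  rw [MonoidHom.coe_comp]
  apply Function.Surjective.comp
  · exact (zmodCyclicMulEquiv (G := σ.ker) inferInstance).surjective
  · intro y
    obtain ⟨x, hx⟩ := ZMod.castHom_surjective hcard (Multiplicative.toAdd y)
    exact ⟨Multiplicative.ofAdd x, by
      show Multiplicative.ofAdd _ = y
      rw [← ofAdd_toAdd y, ← hx]; rfl⟩

end Cfsg.Agent.H29.Meta
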