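import Cfsg.Agent.H29.MetaB
set_option autoImplicit false

/-!
Schur covers of metacyclic groups (again metacyclic).
-/

namespace Cfsg.Agent.H29.Meta

open Subgroup

theorem exists_shift {m0 ρ g : ℕ} (hm0 : 0 < m0) (hg : 0 < g) (hcop : Nat.Coprime ρ m0) :
    ∃ γ : ℕ, Nat.Coprime (ρ + m0 * γ) (m0 * g) := by
  haveI : NeZero (m0 * g) := ⟨(Nat.mul_pos hm0 hg).ne'⟩
  haveI : NeZero m0 := ⟨hm0.ne'⟩
  obtain ⟨U, hU⟩ := ZMod.unitsMap_surjective (Dvd.intro g rfl : m0 ∣ m0 * g) (ZMod.unitOfCoprime ρ hcop)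
  have h1 : Nat.Coprime (U : ZMod (m0 * g)).val (m0 * g) := ZMod.val_coe_unit_coprime U
  set a := (U : ZMod (m0 * g)).val with ha
  have h2 : (a : ZMod m0) = ρ := by
    have h3 := congrArg (fun x : (ZMod m0)ˣ => (x : ZMod m0)) hU
    simp only [ZMod.unitsMap_def, Units.coe_map, MonoidHom.coe_coe, ZMod.coe_unitOfCoprime] at h3
    rw [← h3, ha]
    rw [ZMod.castHom_apply, ZMod.natCast_val]
  have h3 : ρ ≤ a + m0 * g * ρ := by
    have : 1 ≤ m0 * g := Nat.mul_pos hm0 hg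
    nlinarith
  have h4 : (m0 : ℤ) ∣ ((a + m0 * g * ρ : ℕ) : ℤ) - ρ := by
    rw [← ZMod.intCast_zmod_eq_zero_iff_dvd] 
    push_cast
    rw [h2]; simp
  have h5 : m0 ∣ (a + m0 * g * ρ) - ρ := by
    have : ((a + m0 * g * ρ : ℕ) : ℤ) - ρ = (((a + m0 * g * ρ) - ρ : ℕ) : ℤ) := by
      rw [Nat.cast_sub h3]
    rw [this] at h4
    exact_mod_cast h4
  obtain ⟨γ, hγ⟩ := h5
  refine ⟨γ, ?_⟩
  have h6 : ρ + m0 * γ = a + m0 * g * ρ := by omega
  rw [h6]
  rw [Nat.coprime_add_mul_left_left]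
  exact h1

theorem exists_cover {d m0 ρ n l h g : ℕ} (hd : 0 < d) (hm0 : 0 < m0) (hn : 0 < n)
    (hcop : Nat.Coprime ρ m0)
    (he : Nat.gcd (d * m0) (∑ i ∈ Finset.range n, (d * ρ + 1) ^ i) = m0 * h)
    (hg : g = Nat.gcd l h) (hgp : 0 < g) :
    ∃ (Γ : Type) (_ : Group Γ) (_ : Finite Γ) (σ : Γ →* MG (d * m0) n (d * ρ + 1) (m0 * l)),
      Cfsg.IsStemExtension σ ∧ Nonempty (σ.ker ≃* Multiplicative (ZMod g)) := by
  obtain ⟨γ, hγ⟩ := exists_shift hm0 hgp hcop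
  set u := ρ + m0 * γ with hu
  have hgh : g ∣ h := by rw [hg]; exact Nat.gcd_dvd_right _ _
  have hgl : g ∣ l := by rw [hg]; exact Nat.gcd_dvd_left _ _
  have hgd : g ∣ d := by
    have h1 : m0 * g ∣ m0 * d := by
      calc m0 * g ∣ m0 * h := Nat.mul_dvd_mul_left _ hgh
        _ = Nat.gcd (d * m0) (∑ i ∈ Finset.range n, (d * ρ + 1) ^ i) := he.symm
        _ ∣ d * m0 := Nat.gcd_dvd_left _ _
        _ = m0 * d := mul_comm _ _
    exact Nat.dvd_of_mul_dvd_mul_left hm0 h1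
  have hmgS : m0 * g ∣ ∑ i ∈ Finset.range n, (d * ρ + 1) ^ i := by
    calc m0 * g ∣ m0 * h := Nat.mul_dvd_mul_left _ hgh
      _ = Nat.gcd (d * m0) (∑ i ∈ Finset.range n, (d * ρ + 1) ^ i) := he.symm
      _ ∣ _ := Nat.gcd_dvd_right _ _
  have hM : 0 < d * m0 * g := Nat.mul_pos (Nat.mul_pos hd hm0) hgp
  have hmgS' : m0 * g ∣ ∑ i ∈ Finset.range n, (d * u + 1) ^ i := by
    have h1 : (∑ i ∈ Finset.range n, (d * u + 1) ^ i) ≡ (∑ i ∈ Finset.range n, (d * ρ + 1) ^ i) [MOD (m0 * g)] := by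
      have h2 : d * u + 1 ≡ d * ρ + 1 [MOD (m0 * g)] := by
        have h3 : d * u + 1 = d * ρ + 1 + (m0 * g) * (d / g * γ) := by
          obtain ⟨d', rfl⟩ := hgd
          rw [Nat.mul_div_cancel_left _ hgp, hu]; ring
        rw [h3]
        exact (Nat.modEq_iff_dvd' (by omega)).2 (by simp) |>.symm
      clear hγ
      rw [← ZMod.natCast_eq_natCast_iff] at h2 ⊢
      push_cast at h2 ⊢
      rw [h2]
    exact (Nat.modEq_zero_iff_dvd.1 (h1.trans (Nat.modEq_zero_iff_dvd.2 hmgS)))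
  have hpow : (((d * u + 1 : ℕ)) : ZMod (d * m0 * g)) ^ n = 1 := by
    have h1 : ((d * m0 * g : ℕ) : ℤ) ∣ ((d * u + 1 : ℕ) : ℤ) ^ n - 1 := by
      rw [← mul_geom_sum]
      obtain ⟨s, hs⟩ := hmgS'
      have h2 : (∑ i ∈ Finset.range n, ((d * u + 1 : ℕ) : ℤ) ^ i) = m0 * g * s := by
        have := congrArg (fun x : ℕ => (x : ℤ)) hs
        push_cast at this ⊢
        exact this
      rw [h2]
      refine ⟨u * s, ?_⟩
      push_cast; ring
    have h2 := (ZMod.intCast_zmod_eq_zero_iff_dvd _ _).2 h1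
    push_cast at h2 ⊢
    exact sub_eq_zero.1 h2
  have hfix : (((d * u + 1 : ℕ)) : ZMod (d * m0 * g)) * ((m0 * l : ℕ) : ZMod (d * m0 * g)) =
      ((m0 * l : ℕ) : ZMod (d * m0 * g)) := by
    obtain ⟨l', rfl⟩ := hgl
    rw [← Nat.cast_mul]
    have h1 : (d * u + 1) * (m0 * (g * l')) = m0 * (g * l') + (d * m0 * g) * (u * l') := by ring
    rw [h1, Nat.cast_add, Nat.cast_mul (d * m0 * g), ZMod.natCast_self, zero_mul, add_zero]
  set Γ := MG (d * m0 * g) n (d * u + 1) (m0 * l) with hΓ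
  have hfin : Finite Γ := finite_MG hM hn
  have hord : orderOf (gA : Γ) = d * m0 * g := orderOf_A hM hn hpow hfix
  have hAm : (gA : MG (d * m0) n (d * ρ + 1) (m0 * l)) ^ (d * m0) = 1 := relA
  have q3 : (gB : MG (d * m0) n (d * ρ + 1) (m0 * l)) * gA * gB⁻¹ = gA ^ (d * u + 1) := by
    rw [relC, show d * u + 1 = (d * ρ + 1) + (d * m0) * γ by rw [hu]; ring, pow_add _ (d * ρ + 1),
      pow_mul _ (d * m0), hAm, one_pow, mul_one]
  let σ : Γ →* MG (d * m0) n (d * ρ + 1) (m0 * l) :=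
    lift gA gB (by rw [pow_mul, hAm, one_pow]) relB q3
  have hσA : σ gA = gA := lift_A _ _ _ _ _
  have hσB : σ gB = gB := lift_B _ _ _ _ _
  -- the central element
  have hconj : ∀ k : ℕ, (gB : Γ) * gA ^ k * gB⁻¹ = gA ^ ((d * u + 1) * k) := by
    intro k
    rw [← conj_pow, relC, ← pow_mul]
  have hz : ∀ x : Γ, x * gA ^ (d * m0) = gA ^ (d * m0) * x := by
    have h1 : (centralizer {(gA : Γ) ^ (d * m0)}) = ⊤ := by
      rw [eq_top_iff, ← closure_AB, closure_le]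
      rintro x (rfl | rfl)
      · rw [SetLike.mem_coe, mem_centralizer_singleton_iff]
        exact (Commute.self_pow gA _).eq
      · rw [SetLike.mem_coe, mem_centralizer_singleton_iff]
        have h2 := hconj (d * m0)
        have h3 : (gA : Γ) ^ ((d * u + 1) * (d * m0)) = gA ^ (d * m0) := by
          obtain ⟨d', hd'⟩ := hgd
          have h4 : (d * u + 1) * (d * m0) = d * m0 + (d * m0 * g) * (d' * u) := by
            conv_lhs => rw [show d * u = g * d' * u by rw [← hd']]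
            ring
          rw [h4, pow_add, pow_mul _ (d * m0 * g), relA, one_pow, mul_one]
        rw [h3, mul_inv_eq_iff_eq_mul] at h2
        exact h2
    intro x
    have h2 : x ∈ centralizer {(gA : Γ) ^ (d * m0)} := by rw [h1]; exact mem_top _
    exact mem_centralizer_singleton_iff.1 h2
  have hKn : (zpowers ((gA : Γ) ^ (d * m0))).Normal := by
    constructor
    rintro x ⟨k, rfl⟩ y
    refine ⟨k, ?_⟩
    show ((gA : Γ) ^ (d * m0)) ^ k = y * ((gA : Γ) ^ (d * m0)) ^ k * y⁻¹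
    have : Commute y (((gA : Γ) ^ (d * m0)) ^ k) := (show Commute y ((gA : Γ) ^ (d * m0)) from hz y).zpow_right k
    rw [this.eq]; exact (mul_inv_cancel_right _ _).symm
  have hexpo : (gA : Γ) ^ (d * u + 1) = gA ^ (d * ρ + 1) * (gA ^ (d * m0)) ^ γ := by
    rw [← pow_mul, ← pow_add]
    exact congrArg (fun k => (gA : Γ) ^ k) (show d * u + 1 = (d * ρ + 1) + (d * m0) * γ by rw [hu]; ring)
  have hker : σ.ker = zpowers ((gA : Γ) ^ (d * m0)) := by
    apply le_antisymm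
    · have p1 : (QuotientGroup.mk gA : Γ ⧸ zpowers ((gA : Γ) ^ (d * m0))) ^ (d * m0) = 1 := by
        rw [← QuotientGroup.mk_pow, QuotientGroup.eq_one_iff]
        exact mem_zpowers _
      have p2 : (QuotientGroup.mk gB : Γ ⧸ zpowers ((gA : Γ) ^ (d * m0))) ^ n = (QuotientGroup.mk gA) ^ (m0 * l) := by
        rw [← QuotientGroup.mk_pow, relB, QuotientGroup.mk_pow]
      have p3 : (QuotientGroup.mk gB : Γ ⧸ zpowers ((gA : Γ) ^ (d * m0))) * QuotientGroup.mk gA * (QuotientGroup.mk gB)⁻¹ =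
          (QuotientGroup.mk gA) ^ (d * ρ + 1) := by
        rw [← QuotientGroup.mk_inv, ← QuotientGroup.mk_mul, ← QuotientGroup.mk_mul, relC, hexpo,
          QuotientGroup.mk_mul, QuotientGroup.mk_pow, QuotientGroup.mk_pow, QuotientGroup.mk_pow,
          p1, one_pow, mul_one]
      let τ := lift _ _ p1 p2 p3
      have hτσ : τ.comp σ = QuotientGroup.mk' (zpowers ((gA : Γ) ^ (d * m0))) := by
        apply MonoidHom.eq_of_eqOn_dense closure_AB
        rintro x (rfl | rfl)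
        · show τ (σ gA) = _
          rw [hσA]; exact lift_A _ _ p1 p2 p3
        · show τ (σ gB) = _
          rw [hσB]; exact lift_B _ _ p1 p2 p3
      intro x hx
      have h1 : QuotientGroup.mk' (zpowers ((gA : Γ) ^ (d * m0))) x = 1 := by
        rw [← hτσ, MonoidHom.comp_apply, MonoidHom.mem_ker.1 hx, map_one]
      exact (QuotientGroup.eq_one_iff x).1 h1
    · rw [zpowers_le, MonoidHom.mem_ker, map_pow, hσA, hAm]
  refine ⟨Γ, inferInstance, hfin, σ, ⟨?_, ?_, ?_⟩, ?_⟩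
  · rw [← MonoidHom.range_eq_top, eq_top_iff, ← closure_AB, closure_le]
    rintro x (rfl | rfl)
    · exact ⟨gA, hσA⟩
    · exact ⟨gB, hσB⟩
  · rw [hker, zpowers_le, mem_center_iff]
    exact hz
  · rw [hker, zpowers_le]
    have h1 : (gA : Γ) ^ (d * u) ∈ commutator Γ := by
      have h2 : (gB : Γ) * gA * gB⁻¹ * gA⁻¹ = gA ^ (d * u) := by
        rw [relC, pow_succ]; exact mul_inv_cancel_right _ _
      rw [← h2, _root_.commutator_def]
      exact Subgroup.commutator_mem_commutator (mem_top _) (mem_top _)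
    obtain ⟨k, hk⟩ : ∃ k : ℕ, u * k ≡ 1 [MOD (m0 * g)] := by
      rcases Nat.eq_or_lt_of_le (Nat.mul_pos hm0 hgp : 1 ≤ m0 * g) with h3 | h3
      · exact ⟨0, by rw [← h3]; exact Nat.modEq_one⟩
      · obtain ⟨k, hk⟩ := Nat.exists_mul_mod_eq_one_of_coprime hγ h3
        refine ⟨k, ?_⟩
        have : (u * k) % (m0 * g) = 1 % (m0 * g) := by rw [Nat.mod_eq_of_lt h3]; exact hk.2
        exact this
    have h4 : (gA : Γ) ^ (d * m0) = ((gA : Γ) ^ (d * u)) ^ (k * m0) := by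
      rw [← pow_mul]
      apply pow_eq_pow_iff_modEq.2
      rw [hord]
      have h5 : d * u * (k * m0) = d * (u * k * m0) := by ring
      rw [h5, mul_assoc d m0 g]
      apply Nat.ModEq.mul_left'
      have h6 := (hk.mul_right m0).symm
      rw [one_mul] at h6
      exact h6
    rw [h4]
    exact pow_mem h1 _
  · have hcyc : IsCyclic σ.ker := by rw [hker]; infer_instance
    have hcard : Nat.card σ.ker = g := by
      rw [hker, Nat.card_zpowers, orderOf_pow_of_dvd (Nat.mul_pos hd hm0).ne' (by rw [hord]; exact Dvd.intro _ rfl),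
        hord, Nat.mul_div_cancel_left _ (Nat.mul_pos hd hm0)]
    haveI : NeZero g := ⟨hgp.ne'⟩
    haveI := hcyc
    exact ⟨mulEquivOfCyclicCardEq (by rw [hcard]; simp)⟩

/-- the Schur multiplier -/
theorem main {d m0 ρ n l h g : ℕ} (hd : 0 < d) (hm0 : 0 < m0) (hn : 0 < n)
    (hcop : Nat.Coprime ρ m0) (hrn : (d * ρ + 1) ^ n ≡ 1 [MOD (d * m0)])
    (he : Nat.gcd (d * m0) (∑ i ∈ Finset.range n, (d * ρ + 1) ^ i) = m0 * h)
    (hg : g = Nat.gcd l h) (hgp : 0 < g) :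
    Cfsg.HasCyclicSchurMultiplier (MG (d * m0) n (d * ρ + 1) (m0 * l)) g := by
  refine ⟨exists_cover hd hm0 hn hcop he hg hgp, ?_⟩
  intro Γ _ _ σ hσ
  refine upper hd hm0 hn hcop (orderOf_A (Nat.mul_pos hd hm0) hn ?_ ?_) he hg σ hσ
  · have h1 := (ZMod.natCast_eq_natCast_iff _ _ _).2 hrn
    rw [Nat.cast_pow, Nat.cast_one] at h1
    exact h1
  · rw [← Nat.cast_mul]
    have h1 : (d * ρ + 1) * (m0 * l) = m0 * l + (d * m0) * (ρ * l) := by ring
    rw [h1, Nat.cast_add, Nat.cast_mul (d * m0), ZMod.natCast_self, zero_mul, add_zero]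

end Cfsg.Agent.H29.Meta
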