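import Mathlib

/-!
Projective representations over `ZMod 3` of elementary abelian `2`-groups: abstract data `PD`.
-/

set_option autoImplicit false

namespace Cfsg.Agent.H29.Pauli

open Module

/-- the sign character `ZMod 2 → ZMod 3` -/
def sg (x : ZMod 2) : ZMod 3 := if x = 0 then 1 else -1

lemma sg_add (x y : ZMod 2) : sg (x + y) = sg x * sg y := by decide +revert
lemma sg_or (x : ZMod 2) : sg x = 1 ∨ sg x = -1 := by decide +revert
lemma sg_mul_self (x : ZMod 2) : sg x * sg x = 1 := by decide +revert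
@[simp] lemma sg_zero : sg 0 = 1 := by decide
@[simp] lemma sg_one : sg 1 = -1 := by decide
lemma sg_ne (x : ZMod 2) : sg x ≠ 0 := by decide +revert
lemma sg_inj {x y : ZMod 2} (h : sg x = sg y) : x = y := by decide +revert
lemma sg_eq_one {x : ZMod 2} (h : sg x = 1) : x = 0 := by decide +revert

/-- data: a projective representation with bilinear cocycle and non-degenerate commutator form -/
structure PD {U : Type*} [AddCommGroup U] [Module (ZMod 2) U] (V : Type*) [AddCommGroup V] [Module (ZMod 3) V]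
    (β : LinearMap.BilinForm (ZMod 2) U) (P : U → End (ZMod 3) V) : Prop where
  mul : ∀ u v, P u * P v = sg (β u v) • P (u + v)
  zero : P 0 = 1
  nd : ∀ u, u ≠ 0 → ∃ w, β w u + β u w ≠ 0

variable {U : Type*} [AddCommGroup U] [Module (ZMod 2) U] {V : Type*} [AddCommGroup V] [Module (ZMod 3) V]
  {β : LinearMap.BilinForm (ZMod 2) U} {P : U → End (ZMod 3) V}

lemma add_self' (u : U) : u + u = 0 := by
  have : (2 : ZMod 2) • u = 0 := by
    have : (2 : ZMod 2) = 0 := by decide
    rw [this, zero_smul]
  rwa [two_smul] at this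

namespace PD

lemma sq (h : PD V β P) (u : U) : P u * P u = sg (β u u) • (1 : End (ZMod 3) V) := by
  rw [h.mul, add_self', h.zero]

/-- the units -/
noncomputable def pu (h : PD V β P) (u : U) : (End (ZMod 3) V)ˣ :=
  ⟨P u, sg (β u u) • P u, by rw [mul_smul_comm, h.sq, smul_smul, sg_mul_self, one_smul],
    by rw [smul_mul_assoc, h.sq, smul_smul, sg_mul_self, one_smul]⟩

@[simp] lemma pu_val (h : PD V β P) (u : U) : ((h.pu u : (End (ZMod 3) V)ˣ) : End (ZMod 3) V) = P u := rfl

lemma comm (h : PD V β P) (u v : U) : P u * P v = sg (β u v + β v u) • (P v * P u) := by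
  rw [h.mul, h.mul, smul_smul, sg_add, mul_assoc, sg_mul_self, mul_one, add_comm u v]

lemma conj (h : PD V β P) (u v : U) :
    h.pu u * h.pu v * (h.pu u)⁻¹ = if β u v + β v u = 0 then h.pu v else - h.pu v := by
  rw [mul_inv_eq_iff_eq_mul]
  apply Units.ext
  have := h.comm u v
  split_ifs with h0
  · rw [Units.val_mul, Units.val_mul, pu_val, pu_val, this, h0, sg_zero, one_smul]
  · rw [Units.val_mul, Units.val_mul, Units.val_neg, pu_val, pu_val, this]
    have h1 : ∀ x : ZMod 2, x ≠ 0 → sg x = -1 := by decide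
    rw [h1 _ h0, neg_smul, one_smul, neg_mul]

variable [Module.Finite (ZMod 3) V]

lemma trace_eq_zero (h : PD V β P) {u : U} (hu : u ≠ 0) : LinearMap.trace (ZMod 3) V (P u) = 0 := by
  obtain ⟨w, hw⟩ := h.nd u hu
  have h1 : P w * P u * (sg (β w w) • P w) = - P u := by
    have h2 : ∀ x : ZMod 2, x ≠ 0 → sg x = -1 := by decide
    rw [h.comm w u, h2 _ hw, neg_smul, one_smul, neg_mul, mul_assoc, mul_smul_comm, h.sq, smul_smul,
      sg_mul_self, one_smul, mul_one]
  have h3 := congrArg (LinearMap.trace (ZMod 3) V) h1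
  rw [LinearMap.trace_mul_comm, ← mul_assoc, smul_mul_assoc, h.sq, smul_smul, sg_mul_self, one_smul,
    one_mul, map_neg] at h3
  have h4 : ∀ x : ZMod 3, x = -x → x = 0 := by decide
  exact h4 _ h3

lemma li (h : PD V β P) (hV : (finrank (ZMod 3) V : ZMod 3) ≠ 0) : LinearIndependent (ZMod 3) P := by
  classical
  rw [linearIndependent_iff']
  intro s c hc v hv
  have h1 : (∑ u ∈ s, c u • P u) * P v = 0 := by rw [hc, zero_mul]
  rw [Finset.sum_mul] at h1
  have h2 := congrArg (LinearMap.trace (ZMod 3) V) h1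
  rw [map_sum, map_zero, Finset.sum_eq_single v] at h2
  · rw [smul_mul_assoc, h.sq, map_smul, map_smul, LinearMap.trace_one, smul_eq_mul, smul_eq_mul] at h2
    rcases mul_eq_zero.mp h2 with h3 | h3
    · exact h3
    · exact absurd (mul_eq_zero.mp h3) (by push Not; exact ⟨sg_ne _, hV⟩)
  · intro u _ huv
    have h3 : u + v ≠ 0 := by
      intro h4
      apply huv
      have h5 : u + v + v = v := by rw [h4, zero_add]
      rw [add_assoc, add_self', add_zero] at h5
      exact h5
    rw [smul_mul_assoc, h.mul, map_smul, map_smul, h.trace_eq_zero h3, smul_zero, smul_zero]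
  · intro h3; exact absurd hv h3

variable [Fintype U]

noncomputable def bas (h : PD V β P) (hV : (finrank (ZMod 3) V : ZMod 3) ≠ 0)
    (hc : Fintype.card U = finrank (ZMod 3) V * finrank (ZMod 3) V) : Basis U (ZMod 3) (End (ZMod 3) V) :=
  haveI : Nonempty U := ⟨0⟩
  basisOfLinearIndependentOfCardEqFinrank (h.li hV) (by rw [hc, Module.finrank_linearMap])

@[simp] lemma bas_apply (h : PD V β P) (hV : (finrank (ZMod 3) V : ZMod 3) ≠ 0)
    (hc : Fintype.card U = finrank (ZMod 3) V * finrank (ZMod 3) V) (u : U) : h.bas hV hc u = P u := by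
  simp [bas]

/-- Skolem--Noether for these projective representations -/
theorem exists_conj (h : PD V β P) (hV : (finrank (ZMod 3) V : ZMod 3) ≠ 0)
    (hc : Fintype.card U = finrank (ZMod 3) V * finrank (ZMod 3) V)
    (P' : U → End (ZMod 3) V) (hP' : ∀ u v, P' u * P' v = sg (β u v) • P' (u + v)) (h1 : P' 0 = 1)
    (hli : LinearIndependent (ZMod 3) P') :
    ∃ M : (End (ZMod 3) V)ˣ, ∀ u, (M : End (ZMod 3) V) * P u = P' u * M := by
  classical
  set b := h.bas hV hc with hb
  set T : End (ZMod 3) V →ₗ[ZMod 3] End (ZMod 3) V := b.constr (ZMod 3) P' with hT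
  have hTP : ∀ u, T (P u) = P' u := by
    intro u
    have := b.constr_basis (ZMod 3) P' u
    rwa [hb, bas_apply] at this
  have hmul : ∀ x y, T (x * y) = T x * T y := by
    intro x y
    have e1 : (LinearMap.mul (ZMod 3) (End (ZMod 3) V)).compr₂ T =
        (LinearMap.mul (ZMod 3) (End (ZMod 3) V)).compl₁₂ T T := by
      apply b.ext
      intro u
      apply b.ext
      intro v
      rw [hb, bas_apply, bas_apply]
      simp only [LinearMap.compr₂_apply, LinearMap.compl₁₂_apply, LinearMap.mul_apply']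
      rw [h.mul, map_smul, hTP, hTP, hTP, hP']
    have := LinearMap.congr_fun (LinearMap.congr_fun e1 x) y
    simpa using this
  have hT1 : T 1 = 1 := by
    have h0 := hTP 0
    rwa [h.zero, h1] at h0
  have hinj : Function.Injective T := by
    rw [← LinearMap.ker_eq_bot]
    rw [LinearMap.ker_eq_bot']
    intro m hm
    have h2 : T m = ∑ u, b.repr m u • P' u := by
      conv_lhs => rw [← b.sum_repr m]
      rw [map_sum]
      refine Finset.sum_congr rfl fun u _ => ?_
      rw [map_smul, hb, bas_apply, hTP]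
    rw [h2] at hm
    have h3 := Fintype.linearIndependent_iff.mp hli _ hm
    apply b.repr.injective
    ext u
    rw [h3 u, map_zero]; rfl
  have hbij : Function.Bijective T := ⟨hinj, LinearMap.injective_iff_surjective.mp hinj⟩
  let A : End (ZMod 3) V →ₐ[ZMod 3] End (ZMod 3) V := AlgHom.ofLinearMap T hT1 hmul
  let Ae : End (ZMod 3) V ≃ₐ[ZMod 3] End (ZMod 3) V := AlgEquiv.ofBijective A hbij
  obtain ⟨t, ht⟩ := Ae.eq_linearEquivConjAlgEquiv
  refine ⟨⟨t.toLinearMap, t.symm.toLinearMap, ?_, ?_⟩, fun u => ?_⟩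
  · ext v; simp
  · ext v; simp
  · have h2 : Ae (P u) = P' u := hTP u
    rw [← h2, ht]
    ext v
    simp [LinearEquiv.conjAlgEquiv_apply]

/-- only scalars centralise -/
theorem scalar (h : PD V β P) (hV : (finrank (ZMod 3) V : ZMod 3) ≠ 0)
    (hc : Fintype.card U = finrank (ZMod 3) V * finrank (ZMod 3) V)
    (M : (End (ZMod 3) V)ˣ) (hM : ∀ u, (M : End (ZMod 3) V) * P u = P u * M) : M = 1 ∨ M = -1 := by
  classical
  have h1 : (M : End (ZMod 3) V) ∈ Subalgebra.center (ZMod 3) (End (ZMod 3) V) := by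
    rw [Subalgebra.mem_center_iff]
    intro x
    have e1 : LinearMap.mulLeft (ZMod 3) (M : End (ZMod 3) V) = LinearMap.mulRight (ZMod 3) (M : End (ZMod 3) V) := by
      apply (h.bas hV hc).ext
      intro u
      rw [bas_apply]
      simpa using hM u
    have := LinearMap.congr_fun e1 x
    simpa using this.symm
  rw [Algebra.IsCentral.center_eq_bot, Algebra.mem_bot] at h1
  obtain ⟨c, hcM⟩ := h1
  have h2 : ∀ c : ZMod 3, c = 0 ∨ c = 1 ∨ c = -1 := by decide
  have hnt : Nontrivial V := by
    by_contra h3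
    rw [not_nontrivial_iff_subsingleton] at h3
    apply hV
    rw [Module.finrank_zero_of_subsingleton]; simp
  rcases h2 c with rfl | rfl | rfl
  · exfalso
    rw [map_zero] at hcM
    exact M.ne_zero hcM.symm
  · left; apply Units.ext; rw [← hcM, map_one]; rfl
  · right; apply Units.ext; rw [← hcM, map_neg, map_one]; rfl

end PD

end Cfsg.Agent.H29.Pauli
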