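import Mathlib
import Cfsg.Agent.H29.Pauli
import Cfsg.Agent.Extra.Basic

/-!
The group `2^(1+2n).K` for a group `K` of isometries of a quadratic form of plus type over `ZMod 2`.
-/

set_option autoImplicit false

namespace Cfsg.Agent.H29.Pauli

open Module

section Alt

/-- an alternating form over `ZMod 2` is a coboundary -/
lemma exists_coboundary {U : Type*} [AddCommGroup U] [Module (ZMod 2) U] [Module.Finite (ZMod 2) U]
    (α : LinearMap.BilinForm (ZMod 2) U) (hα : ∀ u, α u u = 0) :
    ∃ l : U → ZMod 2, ∀ u v, l (u + v) = l u + l v + α u v := by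
  classical
  set b := Module.finBasis (ZMod 2) U with hb
  set A : Fin (finrank (ZMod 2) U) → Fin (finrank (ZMod 2) U) → ZMod 2 := fun i j => α (b i) (b j) with hA
  have hsymm : ∀ u v, α u v = α v u := by
    intro u v
    have h1 := hα (u + v)
    simp only [map_add, LinearMap.add_apply, hα, add_zero, zero_add] at h1
    have h2 : ∀ x y : ZMod 2, x + y = 0 → x = y := by decide
    exact (h2 _ _ h1).symm
  have hexp : ∀ u v, α u v = ∑ i, ∑ j, b.repr u i * b.repr v j * A i j := by
    intro u v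
    conv_lhs => rw [← b.sum_repr u, ← b.sum_repr v]
    simp only [map_sum, LinearMap.sum_apply, map_smul, LinearMap.smul_apply, smul_eq_mul, Finset.mul_sum]
    rw [Finset.sum_comm]
    refine Finset.sum_congr rfl fun i _ => Finset.sum_congr rfl fun j _ => ?_
    ring
  refine ⟨fun u => ∑ i, ∑ j, if i < j then b.repr u i * b.repr u j * A i j else 0, fun u v => ?_⟩
  rw [hexp u v]
  have hsp : (∑ i, ∑ j, b.repr u i * b.repr v j * A i j) =
      (∑ i, ∑ j, if i < j then b.repr u i * b.repr v j * A i j else 0) +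
      (∑ i, ∑ j, if i < j then b.repr u j * b.repr v i * A i j else 0) := by
    have h1 : (∑ i, ∑ j, if i < j then b.repr u j * b.repr v i * A i j else 0) =
        ∑ i, ∑ j, if j < i then b.repr u i * b.repr v j * A i j else 0 := by
      rw [Finset.sum_comm]
      refine Finset.sum_congr rfl fun i _ => Finset.sum_congr rfl fun j _ => ?_
      split_ifs
      · simp only [hA]; rw [hsymm (b j) (b i)]
      · rfl
    rw [h1, ← Finset.sum_add_distrib]
    refine Finset.sum_congr rfl fun i _ => ?_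
    rw [← Finset.sum_add_distrib]
    refine Finset.sum_congr rfl fun j _ => ?_
    rcases lt_trichotomy i j with h | h | h
    · rw [if_pos h, if_neg (not_lt.mpr h.le), add_zero]
    · subst h; simp [hA, hα]
    · rw [if_neg (not_lt.mpr h.le), if_pos h, zero_add]
  rw [hsp, ← add_assoc, ← Finset.sum_add_distrib, ← Finset.sum_add_distrib, ← Finset.sum_add_distrib]
  refine Finset.sum_congr rfl fun i _ => ?_
  rw [← Finset.sum_add_distrib, ← Finset.sum_add_distrib, ← Finset.sum_add_distrib]
  refine Finset.sum_congr rfl fun j _ => ?_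
  split_ifs
  · rw [map_add]; simp only [Finsupp.add_apply]; ring
  · ring

end Alt

variable {U : Type*} [AddCommGroup U] [Module (ZMod 2) U] [Fintype U] {V : Type*} [AddCommGroup V]
  [Module (ZMod 3) V] [Module.Finite (ZMod 3) V]
  {β : LinearMap.BilinForm (ZMod 2) U} {P : U → End (ZMod 3) V}

namespace PD

/-- lifting isometries -/
theorem exists_lift (h : PD V β P) (hV : (finrank (ZMod 3) V : ZMod 3) ≠ 0)
    (hc : Fintype.card U = finrank (ZMod 3) V * finrank (ZMod 3) V)
    (k : U ≃ₗ[ZMod 2] U) (hk : ∀ u, β (k u) (k u) = β u u) :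
    ∃ M : (End (ZMod 3) V)ˣ, ∀ u, M * h.pu u * M⁻¹ = h.pu (k u) ∨ M * h.pu u * M⁻¹ = - h.pu (k u) := by
  classical
  haveI : Module.Finite (ZMod 2) U := Module.Finite.of_finite
  obtain ⟨l, hl⟩ := exists_coboundary (β.compl₁₂ k.toLinearMap k.toLinearMap + β) (by
    intro u
    simp only [LinearMap.add_apply, LinearMap.compl₁₂_apply, LinearEquiv.coe_coe]
    rw [hk]
    have : ∀ x : ZMod 2, x + x = 0 := by decide
    exact this _)
  have hl0 : l 0 = 0 := by
    have h1 := hl 0 0
    simp only [add_zero, map_zero] at h1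
    have h2 : ∀ x : ZMod 2, x = x + x → x = 0 := by decide
    exact h2 _ h1
  have hP' : ∀ u v, (sg (l u) • P (k u)) * (sg (l v) • P (k v)) = sg (β u v) • (sg (l (u + v)) • P (k (u + v))) := by
    intro u v
    rw [smul_mul_smul_comm, h.mul, smul_smul, smul_smul, map_add]
    congr 1
    rw [← sg_add, ← sg_add, ← sg_add, hl]
    congr 1
    simp only [LinearMap.add_apply, LinearMap.compl₁₂_apply, LinearEquiv.coe_coe]
    have h3 : ∀ a b c d : ZMod 2, a + b + c = d + (a + b + (c + d)) := by decide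
    exact h3 _ _ _ _
  have hli : LinearIndependent (ZMod 3) (fun u => sg (l u) • P (k u)) := by
    have h1 := ((h.li hV).comp k k.injective).units_smul
      (fun u => (⟨sg (l u), sg (l u), sg_mul_self _, sg_mul_self _⟩ : (ZMod 3)ˣ))
    exact h1
  obtain ⟨M, hM⟩ := h.exists_conj hV hc (fun u => sg (l u) • P (k u)) hP' (by
    show sg (l 0) • P (k 0) = 1
    rw [hl0, map_zero, h.zero]; simp) hli
  refine ⟨M, fun u => ?_⟩
  have h1 := hM u
  rw [mul_inv_eq_iff_eq_mul, mul_inv_eq_iff_eq_mul]
  rcases sg_or (l u) with h2 | h2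
  · left; apply Units.ext
    rw [h2, one_smul] at h1
    exact h1
  · right; apply Units.ext
    rw [h2, neg_smul, one_smul] at h1
    rw [Units.val_mul, Units.val_mul, Units.val_neg]
    exact h1

/-- the kernel -/
theorem ker (h : PD V β P) (hV : (finrank (ZMod 3) V : ZMod 3) ≠ 0)
    (hc : Fintype.card U = finrank (ZMod 3) V * finrank (ZMod 3) V)
    (M : (End (ZMod 3) V)ˣ) (hM : ∀ u, M * h.pu u * M⁻¹ = h.pu u ∨ M * h.pu u * M⁻¹ = - h.pu u) :
    ∃ v, M = h.pu v ∨ M = - h.pu v := by
  classical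
  haveI : Module.Finite (ZMod 2) U := Module.Finite.of_finite
  have hM' : ∀ u, ∃ e : ZMod 2, (M : End (ZMod 3) V) * P u = sg e • (P u * M) := by
    intro u
    rcases hM u with h1 | h1
    · refine ⟨0, ?_⟩
      rw [mul_inv_eq_iff_eq_mul] at h1
      have := congrArg Units.val h1
      rw [sg_zero, one_smul]; exact this
    · refine ⟨1, ?_⟩
      rw [mul_inv_eq_iff_eq_mul] at h1
      have := congrArg Units.val h1
      rw [Units.val_mul, Units.val_mul, Units.val_neg, neg_mul] at this
      rw [sg_one, neg_smul, one_smul]; exact this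
  choose e he using hM'
  have hPne : ∀ u, P u * M ≠ 0 := by
    intro u hu
    have h1 : ((h.pu u * M : (End (ZMod 3) V)ˣ) : End (ZMod 3) V) = 0 := hu
    haveI : Nontrivial V := by
      by_contra h3
      rw [not_nontrivial_iff_subsingleton] at h3
      apply hV
      rw [Module.finrank_zero_of_subsingleton]; simp
    exact Units.ne_zero _ h1
  have hadd : ∀ u v, e (u + v) = e u + e v := by
    intro u v
    have h1 : (M : End (ZMod 3) V) * (P u * P v) = sg (e u + e v) • (P u * P v * M) := by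
      rw [← mul_assoc, he u, smul_mul_assoc, mul_assoc, he v, mul_smul_comm, smul_smul, sg_add, mul_assoc]
    rw [h.mul, mul_smul_comm, he (u + v), smul_mul_assoc] at h1
    have h2 : (sg (β u v) * sg (e (u + v))) • (P (u + v) * (M : End (ZMod 3) V)) =
        (sg (β u v) * sg (e u + e v)) • (P (u + v) * (M : End (ZMod 3) V)) := by
      rw [← smul_smul, h1, smul_smul]
      congr 1; ring
    have h3 := sub_eq_zero.mpr h2
    rw [← sub_smul, smul_eq_zero] at h3
    rcases h3 with h3 | h3
    · rw [← mul_sub] at h3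
      rcases mul_eq_zero.mp h3 with h4 | h4
      · exact absurd h4 (sg_ne _)
      · exact sg_inj (sub_eq_zero.mp h4)
    · exact absurd h3 (hPne _)
  -- the commutator form
  let B : LinearMap.BilinForm (ZMod 2) U := β + β.flip
  have hB : Function.Injective B := by
    rw [injective_iff_map_eq_zero]
    intro u hu
    by_contra h0
    obtain ⟨w, hw⟩ := h.nd u h0
    apply hw
    have := LinearMap.congr_fun hu w
    simp only [B, LinearMap.add_apply, LinearMap.flip_apply, LinearMap.zero_apply] at this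
    rw [add_comm]; exact this
  have hBs : Function.Surjective B := by
    have h1 : finrank (ZMod 2) U = finrank (ZMod 2) (Module.Dual (ZMod 2) U) := (Subspace.dual_finrank_eq).symm
    exact (LinearMap.injective_iff_surjective_of_finrank_eq_finrank h1).mp hB
  let el : Module.Dual (ZMod 2) U :=
    { toFun := e
      map_add' := hadd
      map_smul' := by
        intro c u
        have : ∀ c : ZMod 2, c = 0 ∨ c = 1 := by decide
        rcases this c with rfl | rfl
        · simp only [zero_smul, RingHom.id_apply]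
          have h1 := hadd 0 0
          rw [add_zero] at h1
          have h2 : ∀ x : ZMod 2, x = x + x → x = 0 := by decide
          exact h2 _ h1
        · simp only [one_smul, RingHom.id_apply] }
  obtain ⟨v, hv⟩ := hBs el
  have hev : ∀ u, e u = β v u + β u v := by
    intro u
    have := LinearMap.congr_fun hv u
    simp only [B, LinearMap.add_apply, LinearMap.flip_apply] at this
    exact this.symm
  have h5 : h.pu v * M = 1 ∨ h.pu v * M = -1 := by
    apply h.scalar hV hc
    intro u
    rw [Units.val_mul, pu_val, mul_assoc, he u, mul_smul_comm, ← mul_assoc, h.comm v u, smul_mul_assoc, smul_smul,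
      hev u, sg_mul_self, one_smul, mul_assoc]
  have h6 : h.pu v * h.pu v = 1 ∨ h.pu v * h.pu v = -1 := by
    rcases sg_or (β v v) with h1 | h1
    · left; apply Units.ext
      rw [Units.val_mul, pu_val, h.sq, h1, one_smul]; rfl
    · right; apply Units.ext
      rw [Units.val_mul, pu_val, h.sq, h1, neg_smul, one_smul]; rfl
  refine ⟨v, ?_⟩
  have h7 : M = h.pu v ∨ M = - h.pu v := by
    rcases h5 with h5 | h5 <;> rcases h6 with h6 | h6
    · left; exact mul_left_cancel (h5.trans h6.symm)
    · right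
      apply mul_left_cancel (a := h.pu v)
      rw [h5, mul_neg, h6, neg_neg]
    · right
      apply mul_left_cancel (a := h.pu v)
      rw [h5, mul_neg, h6]
    · left; exact mul_left_cancel (h5.trans h6.symm)
  exact h7

lemma pu_inj (h : PD V β P) (hV : (finrank (ZMod 3) V : ZMod 3) ≠ 0) {u v : U}
    (huv : h.pu u = h.pu v ∨ h.pu u = - h.pu v) : u = v := by
  classical
  by_contra hne
  have hli := h.li hV
  have h2 : LinearIndependent (ZMod 3) ![P u, P v] := by
    have := hli.comp ![u, v] (by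
      intro i j hij
      fin_cases i <;> fin_cases j <;> simp_all)
    convert this using 1
    ext i; fin_cases i <;> rfl
  rw [LinearIndependent.pair_iff] at h2
  rcases huv with h1 | h1
  · have h3 := congrArg Units.val h1
    have := h2 1 (-1) (by rw [one_smul, neg_smul, one_smul, ← sub_eq_add_neg, sub_eq_zero]; exact h3)
    exact absurd this.1 (by decide)
  · have h3 := congrArg Units.val h1
    have h4 : P u = - P v := h3
    have := h2 1 1 (by rw [one_smul, one_smul, h4]; simp)
    exact absurd this.1 (by decide)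

/-- equality up to sign -/
def Sm (a b : (End (ZMod 3) V)ˣ) : Prop := a = b ∨ a = - b

omit [Module.Finite (ZMod 3) V] in
lemma Sm.trans {a b c : (End (ZMod 3) V)ˣ} (h1 : Sm a b) (h2 : Sm b c) : Sm a c := by
  rcases h1 with rfl | rfl <;> rcases h2 with rfl | rfl
  · exact Or.inl rfl
  · exact Or.inr rfl
  · exact Or.inr rfl
  · left; rw [neg_neg]

omit [Module.Finite (ZMod 3) V] in
lemma Sm.symm {a b : (End (ZMod 3) V)ˣ} (h1 : Sm a b) : Sm b a := by
  rcases h1 with rfl | rfl
  · exact Or.inl rfl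
  · right; rw [neg_neg]

omit [Module.Finite (ZMod 3) V] in
lemma Sm.mul {a b c d : (End (ZMod 3) V)ˣ} (h1 : Sm a b) (h2 : Sm c d) : Sm (a * c) (b * d) := by
  rcases h1 with rfl | rfl <;> rcases h2 with rfl | rfl
  · exact Or.inl rfl
  · right; rw [mul_neg]
  · right; rw [neg_mul]
  · left; rw [neg_mul, mul_neg, neg_neg]

omit [Fintype U] [Module.Finite (ZMod 3) V] in
lemma pu_mul (h : PD V β P) (u v : U) : Sm (h.pu u * h.pu v) (h.pu (u + v)) := by
  rcases sg_or (β u v) with h1 | h1
  · left; apply Units.ext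
    rw [Units.val_mul, pu_val, pu_val, h.mul, h1, one_smul]; rfl
  · right; apply Units.ext
    rw [Units.val_mul, Units.val_neg, pu_val, pu_val, h.mul, h1, neg_smul, one_smul]; rfl

omit [Fintype U] [Module.Finite (ZMod 3) V] in
lemma pu_zero (h : PD V β P) : h.pu 0 = 1 := by
  apply Units.ext; rw [pu_val, h.zero]; rfl

variable {K : Type*} [Group K]

omit [Fintype U] [Module.Finite (ZMod 3) V] in
lemma conj_mul {M N : (End (ZMod 3) V)ˣ} (h : PD V β P) (ρ : Representation (ZMod 2) K U) {k l : K}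
    (hM : ∀ u, Sm (M * h.pu u * M⁻¹) (h.pu (ρ k u))) (hN : ∀ u, Sm (N * h.pu u * N⁻¹) (h.pu (ρ l u))) (u : U) :
    Sm (M * N * h.pu u * (M * N)⁻¹) (h.pu (ρ (k * l) u)) := by
  have h1 : M * N * h.pu u * (M * N)⁻¹ = M * (N * h.pu u * N⁻¹) * M⁻¹ := by group
  rw [h1]
  have h2 : Sm (M * (N * h.pu u * N⁻¹) * M⁻¹) (M * h.pu (ρ l u) * M⁻¹) :=
    ((show Sm M M from Or.inl rfl).mul (hN u)).mul (Or.inl rfl)
  have h3 := h2.trans (hM (ρ l u))
  rwa [map_mul]

omit [Fintype U] [Module.Finite (ZMod 3) V] in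
lemma conj_inv {M : (End (ZMod 3) V)ˣ} (h : PD V β P) (ρ : Representation (ZMod 2) K U) {k : K}
    (hM : ∀ u, Sm (M * h.pu u * M⁻¹) (h.pu (ρ k u))) (u : U) :
    Sm (M⁻¹ * h.pu u * M⁻¹⁻¹) (h.pu (ρ k⁻¹ u)) := by
  have h1 := hM (ρ k⁻¹ u)
  have h2 : ρ k (ρ k⁻¹ u) = u := by
    have h0 := congrArg (fun f => f u) (map_mul ρ k k⁻¹)
    simp only [mul_inv_cancel, map_one] at h0
    exact h0.symm
  rw [h2] at h1
  have h3 : Sm (M⁻¹ * h.pu u * M) (M⁻¹ * (M * h.pu (ρ k⁻¹ u) * M⁻¹) * M) :=
    ((show Sm M⁻¹ M⁻¹ from Or.inl rfl).mul h1.symm).mul (Or.inl rfl)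
  have h4 : M⁻¹ * (M * h.pu (ρ k⁻¹ u) * M⁻¹) * M = h.pu (ρ k⁻¹ u) := by group
  rw [h4] at h3
  rwa [inv_inv]

/-- the group `R` -/
def RG (h : PD V β P) (ρ : Representation (ZMod 2) K U) : Subgroup (End (ZMod 3) V)ˣ where
  carrier := {M | ∃ k : K, ∀ u, Sm (M * h.pu u * M⁻¹) (h.pu (ρ k u))}
  one_mem' := ⟨1, fun u => by rw [map_one]; left; simp⟩
  mul_mem' := by
    rintro M N ⟨k, hk⟩ ⟨l, hl⟩
    exact ⟨k * l, fun u => h.conj_mul ρ hk hl u⟩
  inv_mem' := by
    rintro M ⟨k, hk⟩
    exact ⟨k⁻¹, fun u => h.conj_inv ρ hk u⟩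

noncomputable def kOf (h : PD V β P) (ρ : Representation (ZMod 2) K U) (M : RG h ρ) : K := M.2.choose

omit [Fintype U] [Module.Finite (ZMod 3) V] in
lemma kOf_spec (h : PD V β P) (ρ : Representation (ZMod 2) K U) (M : RG h ρ) (u : U) :
    Sm ((M : (End (ZMod 3) V)ˣ) * h.pu u * (M : (End (ZMod 3) V)ˣ)⁻¹) (h.pu (ρ (kOf h ρ M) u)) := M.2.choose_spec u

lemma kOf_unique (h : PD V β P) (hV : (finrank (ZMod 3) V : ZMod 3) ≠ 0) (ρ : Representation (ZMod 2) K U)
    (hρ : Function.Injective ρ) (M : RG h ρ) (k : K)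
    (hk : ∀ u, Sm ((M : (End (ZMod 3) V)ˣ) * h.pu u * (M : (End (ZMod 3) V)ˣ)⁻¹) (h.pu (ρ k u))) : kOf h ρ M = k := by
  apply hρ
  ext u
  exact h.pu_inj hV ((kOf_spec h ρ M u).symm.trans (hk u))

noncomputable def proj (h : PD V β P) (hV : (finrank (ZMod 3) V : ZMod 3) ≠ 0) (ρ : Representation (ZMod 2) K U)
    (hρ : Function.Injective ρ) : RG h ρ →* K where
  toFun := kOf h ρ
  map_one' := h.kOf_unique hV ρ hρ _ _ (fun u => by rw [map_one]; left; simp)
  map_mul' := fun M N => h.kOf_unique hV ρ hρ _ _ (fun u => h.conj_mul ρ (kOf_spec h ρ M) (kOf_spec h ρ N) u)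

end PD

end Cfsg.Agent.H29.Pauli
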