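import Mathlib
import Cfsg.Prelude.Def_Transfer
import Cfsg.Agent.H29.PauliG
import Cfsg.Agent.Extra.Basic

set_option autoImplicit false

namespace Cfsg.Agent.H29.Pauli

open Module

variable {U : Type*} [AddCommGroup U] [Module (ZMod 2) U] [Fintype U] {V : Type} [AddCommGroup V]
  [Module (ZMod 3) V] [Module.Finite (ZMod 3) V]
  {β : LinearMap.BilinForm (ZMod 2) U} {P : U → End (ZMod 3) V}
variable {K : Type*} [Group K]

namespace PD

lemma mem_ker_iff (h : PD V β P) (hV : (finrank (ZMod 3) V : ZMod 3) ≠ 0)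
    (hc : Fintype.card U = finrank (ZMod 3) V * finrank (ZMod 3) V) (ρ : Representation (ZMod 2) K U)
    (hρ : Function.Injective ρ) (M : RG h ρ) :
    M ∈ (proj h hV ρ hρ).ker ↔ ∃ v, Sm (M : (End (ZMod 3) V)ˣ) (h.pu v) := by
  constructor
  · intro hM
    have h1 : kOf h ρ M = 1 := hM
    apply h.ker hV hc
    intro u
    have := kOf_spec h ρ M u
    rw [h1, map_one] at this
    exact this
  · rintro ⟨v, hv⟩
    show kOf h ρ M = 1
    apply h.kOf_unique hV ρ hρ
    intro u
    rw [map_one]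
    have h1 : Sm ((M : (End (ZMod 3) V)ˣ) * h.pu u * (M : (End (ZMod 3) V)ˣ)⁻¹) (h.pu v * h.pu u * (h.pu v)⁻¹) := by
      rcases hv with hv | hv
      · rw [hv]; exact Or.inl rfl
      · rw [hv]; left; simp
    refine h1.trans ?_
    have := h.conj v u
    split_ifs at this
    · exact Or.inl this
    · exact Or.inr this

lemma pu_mem (h : PD V β P) (ρ : Representation (ZMod 2) K U) (v : U) : h.pu v ∈ RG h ρ := by
  refine ⟨1, fun u => ?_⟩
  rw [map_one]
  have := h.conj v u
  split_ifs at this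
  · exact Or.inl this
  · exact Or.inr this

lemma neg_mem' (h : PD V β P) (ρ : Representation (ZMod 2) K U) (M : (End (ZMod 3) V)ˣ) (hM : M ∈ RG h ρ) :
    - M ∈ RG h ρ := by
  obtain ⟨k, hk⟩ := hM
  refine ⟨k, fun u => ?_⟩
  have : -M * h.pu u * (-M)⁻¹ = M * h.pu u * M⁻¹ := by simp
  rw [this]; exact hk u

theorem main (h : PD V β P) (hV : (finrank (ZMod 3) V : ZMod 3) ≠ 0)
    (hc : Fintype.card U = finrank (ZMod 3) V * finrank (ZMod 3) V) (ρ : Representation (ZMod 2) K U)
    (hρ : Function.Injective ρ) (q : QuadraticForm (ZMod 2) U) (hq : ∀ (k : K) (u : U), q (ρ k u) = q u)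
    (hβ : ∀ u, β u u = q u) (n : ℕ) (hn1 : 1 ≤ n) (hn : Fintype.card U = 2 ^ (2 * n)) :
    ∃ (R : Type) (_ : Group R) (_ : Finite R) (Q : Subgroup R) (hN : Q.Normal) (e : R ⧸ Q ≃* K)
      (χ : ↥Q →* Multiplicative U), Cfsg.IsExtraspecial 2 ↥Q ∧ Nat.card ↥Q = 2 ^ (2 * n + 1) ∧
      Function.Surjective χ ∧ χ.ker = Subgroup.center ↥Q ∧
      (∀ (r : R) (a : ↥Q), χ ⟨r * a * r⁻¹, hN.conj_mem (a : R) a.2 r⟩ =
        Multiplicative.ofAdd (ρ (e (r : R ⧸ Q)) (Multiplicative.toAdd (χ a)))) ∧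
      ∀ a : ↥Q, a * a = 1 ↔ q (Multiplicative.toAdd (χ a)) = 0 := by
  classical
  haveI : Finite V := Module.finite_of_finite (ZMod 3)
  haveI : Finite (End (ZMod 3) V) := Finite.of_injective (fun f => (f : V → V)) DFunLike.coe_injective
  haveI : Finite (End (ZMod 3) V)ˣ := inferInstance
  set π := proj h hV ρ hρ with hπ
  have hpi_spec : ∀ (M : RG h ρ) (u : U), Sm ((M : (End (ZMod 3) V)ˣ) * h.pu u * (M : (End (ZMod 3) V)ˣ)⁻¹)
      (h.pu (ρ (π M) u)) := fun M u => kOf_spec h ρ M u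
  have hsurj : Function.Surjective π := by
    intro k
    let ke : U ≃ₗ[ZMod 2] U := LinearEquiv.ofLinear (ρ k) (ρ k⁻¹)
      (by
        have h0 := map_mul ρ k k⁻¹
        rw [mul_inv_cancel, map_one] at h0; exact h0.symm)
      (by
        have h0 := map_mul ρ k⁻¹ k
        rw [inv_mul_cancel, map_one] at h0; exact h0.symm)
    obtain ⟨M, hM⟩ := h.exists_lift hV hc ke (by
      intro u; rw [hβ, hβ]; exact hq k u)
    refine ⟨⟨M, k, fun u => hM u⟩, ?_⟩
    exact h.kOf_unique hV ρ hρ _ _ (fun u => hM u)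
  have hex : ∀ M : π.ker, ∃ v, Sm ((M : RG h ρ) : (End (ZMod 3) V)ˣ) (h.pu v) := fun M =>
    (h.mem_ker_iff hV hc ρ hρ M.1).mp M.2
  choose vv hvv using hex
  have huniq : ∀ (M : π.ker) (v : U), Sm ((M : RG h ρ) : (End (ZMod 3) V)ˣ) (h.pu v) → vv M = v := by
    intro M v hv
    exact h.pu_inj hV ((hvv M).symm.trans hv)
  let χ : π.ker →* Multiplicative U :=
    { toFun := fun M => Multiplicative.ofAdd (vv M)
      map_one' := by
        rw [huniq 1 0 (by rw [h.pu_zero]; exact Or.inl rfl)]; rfl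
      map_mul' := fun M N => by
        rw [huniq (M * N) (vv M + vv N) (((hvv M).mul (hvv N)).trans (h.pu_mul _ _))]; rfl }
  have hχ : ∀ M, χ M = Multiplicative.ofAdd (vv M) := fun _ => rfl
  have hχs : Function.Surjective χ := by
    intro v
    refine ⟨⟨⟨h.pu (Multiplicative.toAdd v), h.pu_mem ρ _⟩,
      (h.mem_ker_iff hV hc ρ hρ _).mpr ⟨Multiplicative.toAdd v, Or.inl rfl⟩⟩, ?_⟩
    rw [hχ, huniq _ (Multiplicative.toAdd v) (Or.inl rfl)]; rfl
  -- the sign elements
  have hnt : Nontrivial V := by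
    by_contra h3
    rw [not_nontrivial_iff_subsingleton] at h3
    apply hV
    rw [Module.finrank_zero_of_subsingleton]; simp
  have hne1 : ∀ M : (End (ZMod 3) V)ˣ, M ≠ - M := by
    intro M hM
    have h1 : (M : End (ZMod 3) V) = - (M : End (ZMod 3) V) := congrArg Units.val hM
    obtain ⟨x, hx⟩ := exists_ne (0 : V)
    have hMx : (M : End (ZMod 3) V) x ≠ 0 := by
      intro h0
      apply hx
      have : ((M⁻¹ * M : (End (ZMod 3) V)ˣ) : End (ZMod 3) V) x = x := by rw [inv_mul_cancel]; rfl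
      rw [← this, Units.val_mul, Module.End.mul_apply, h0, map_zero]
    have h2 : (M : End (ZMod 3) V) x = - (M : End (ZMod 3) V) x := by
      conv_lhs => rw [h1]
      rfl
    apply hMx
    have h3 : (2 : ZMod 3) • ((M : End (ZMod 3) V) x) = 0 := by
      rw [two_smul]; nth_rw 1 [h2]; simp
    rcases smul_eq_zero.mp h3 with h4 | h4
    · exact absurd h4 (by decide)
    · exact h4
  have hker : ∀ M : π.ker, M ∈ χ.ker ↔ Sm ((M : RG h ρ) : (End (ZMod 3) V)ˣ) 1 := by
    intro M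
    rw [MonoidHom.mem_ker, hχ]
    constructor
    · intro h1
      have h2 : vv M = 0 := h1
      have := hvv M
      rwa [h2, h.pu_zero] at this
    · intro h1
      rw [huniq M 0 (by rw [h.pu_zero]; exact h1)]; rfl
  have hcen : χ.ker = Subgroup.center ↥π.ker := by
    ext M
    rw [hker, Subgroup.mem_center_iff]
    constructor
    · intro h1 N
      apply Subtype.ext
      apply Subtype.ext
      show (((N : RG h ρ) : (End (ZMod 3) V)ˣ)) * ((M : RG h ρ) : (End (ZMod 3) V)ˣ) =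
        ((M : RG h ρ) : (End (ZMod 3) V)ˣ) * ((N : RG h ρ) : (End (ZMod 3) V)ˣ)
      rcases h1 with h1 | h1 <;> rw [h1] <;> simp
    · intro h1
      by_contra h2
      have hv : vv M ≠ 0 := by
        intro h3
        apply h2
        have := hvv M
        rwa [h3, h.pu_zero] at this
      obtain ⟨w, hw⟩ := h.nd _ hv
      have h4 := h1 ⟨⟨h.pu w, h.pu_mem ρ _⟩, (h.mem_ker_iff hV hc ρ hρ _).mpr ⟨w, Or.inl rfl⟩⟩
      have h5 : h.pu w * ((M : RG h ρ) : (End (ZMod 3) V)ˣ) = ((M : RG h ρ) : (End (ZMod 3) V)ˣ) * h.pu w :=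
        congrArg (fun x : π.ker => ((x : RG h ρ) : (End (ZMod 3) V)ˣ)) h4
      have h6 : h.pu w * h.pu (vv M) = h.pu (vv M) * h.pu w := by
        rcases hvv M with h7 | h7
        · rw [h7] at h5; exact h5
        · rw [h7, mul_neg, neg_mul, neg_inj] at h5; exact h5
      have h8 := h.conj w (vv M)
      rw [if_neg hw, h6, mul_inv_cancel_right] at h8
      exact hne1 _ h8
  have hcard2 : Nat.card χ.ker = 2 := by
    have e : χ.ker ≃ Fin 2 := by
      refine (Equiv.ofBijective (fun i : Fin 2 => if i = 0 then (1 : χ.ker) else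
        ⟨⟨⟨-1, h.neg_mem' ρ _ (one_mem _)⟩, (h.mem_ker_iff hV hc ρ hρ _).mpr ⟨0, by rw [h.pu_zero]; exact Or.inr rfl⟩⟩,
          (hker _).mpr (Or.inr rfl)⟩) ⟨?_, ?_⟩).symm
      · intro i j hij
        by_contra hne
        have key : (1 : (End (ZMod 3) V)ˣ) ≠ -1 := hne1 1
        fin_cases i <;> fin_cases j
        · exact hne rfl
        · exact key (congrArg (fun x : χ.ker => (((x : π.ker) : RG h ρ) : (End (ZMod 3) V)ˣ)) hij)
        · exact key (congrArg (fun x : χ.ker => (((x : π.ker) : RG h ρ) : (End (ZMod 3) V)ˣ)) hij).symm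
        · exact hne rfl
      · intro M
        rcases (hker M.1).mp M.2 with h1 | h1
        · exact ⟨0, Subtype.ext (Subtype.ext (Subtype.ext h1.symm))⟩
        · exact ⟨1, Subtype.ext (Subtype.ext (Subtype.ext h1.symm))⟩
    rw [Nat.card_congr e, Nat.card_fin]
  have hcard : Nat.card ↥π.ker = 2 ^ (2 * n + 1) := by
    have h1 := Subgroup.card_eq_card_quotient_mul_card_subgroup χ.ker
    rw [hcard2, Nat.card_congr (QuotientGroup.quotientKerEquivOfSurjective χ hχs).toEquiv] at h1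
    rw [h1]
    have h2 : Nat.card (Multiplicative U) = 2 ^ (2 * n) := by
      rw [← hn, ← Nat.card_eq_fintype_card]; exact Nat.card_congr Multiplicative.toAdd
    rw [h2, pow_succ]
  have hges : Extra.GES 2 ↥π.ker := by
    refine ⟨by rw [← hcen]; exact hcard2, ?_⟩
    show commutator ↥π.ker ≤ Subgroup.center ↥π.ker
    rw [← hcen]
    exact Abelianization.commutator_subset_ker χ
  have hxs : Cfsg.IsExtraspecial 2 ↥π.ker := by
    haveI : Fact (Nat.Prime 2) := ⟨Nat.prime_two⟩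
    apply Extra.isExtraspecial_of_ges hges
    intro h1
    have h2 : Nat.card (Subgroup.center ↥π.ker) = 2 := by rw [← hcen]; exact hcard2
    rw [h1, Subgroup.card_top, hcard] at h2
    have h3 : 2 ^ 1 < 2 ^ (2 * n + 1) := Nat.pow_lt_pow_right (by norm_num) (by omega)
    omega
  refine ⟨RG h ρ, inferInstance, inferInstance, π.ker, inferInstance,
    QuotientGroup.quotientKerEquivOfSurjective π hsurj, χ, hxs, hcard, hχs, hcen, ?_, ?_⟩
  · intro r a
    have h1 : (QuotientGroup.quotientKerEquivOfSurjective π hsurj) (r : RG h ρ ⧸ π.ker) = π r := rfl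
    rw [h1, hχ, hχ]
    congr 1
    apply huniq
    show Sm ((r : (End (ZMod 3) V)ˣ) * ((a : RG h ρ) : (End (ZMod 3) V)ˣ) * (r : (End (ZMod 3) V)ˣ)⁻¹) _
    have h2 : Sm ((r : (End (ZMod 3) V)ˣ) * ((a : RG h ρ) : (End (ZMod 3) V)ˣ) * (r : (End (ZMod 3) V)ˣ)⁻¹)
        ((r : (End (ZMod 3) V)ˣ) * h.pu (vv a) * (r : (End (ZMod 3) V)ˣ)⁻¹) :=
      ((show Sm (r : (End (ZMod 3) V)ˣ) r from Or.inl rfl).mul (hvv a)).mul (Or.inl rfl)
    exact h2.trans (hpi_spec r (vv a))
  · intro a
    rw [hχ]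
    show a * a = 1 ↔ q (vv a) = 0
    have h1 : a * a = 1 ↔ ((a : RG h ρ) : (End (ZMod 3) V)ˣ) * ((a : RG h ρ) : (End (ZMod 3) V)ˣ) = 1 := by
      constructor
      · intro h2; exact congrArg (fun x : π.ker => ((x : RG h ρ) : (End (ZMod 3) V)ˣ)) h2
      · intro h2; exact Subtype.ext (Subtype.ext h2)
    have h2 : ((a : RG h ρ) : (End (ZMod 3) V)ˣ) * ((a : RG h ρ) : (End (ZMod 3) V)ˣ) = h.pu (vv a) * h.pu (vv a) := by
      rcases hvv a with h3 | h3 <;> rw [h3]
      simp
    rw [h1, h2, ← hβ]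
    constructor
    · intro h3
      rcases sg_or (β (vv a) (vv a)) with h4 | h4
      · exact sg_eq_one h4
      · exfalso
        have h5 := congrArg Units.val h3
        rw [Units.val_mul, pu_val, h.sq, h4, neg_smul, one_smul] at h5
        apply hne1 1
        apply Units.ext
        rw [Units.val_neg, Units.val_one]
        exact h5.symm
    · intro h3
      apply Units.ext
      rw [Units.val_mul, pu_val, h.sq, h3, sg_zero, one_smul]; rfl

end PD

end Cfsg.Agent.H29.Pauli
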