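import Mathlib
import Cfsg.Agent.H29.PauliM

/-!
Hyperbolic coordinates for a quadratic form of plus type over `ZMod 2`, and the concrete Pauli matrices.
-/

set_option autoImplicit false

namespace Cfsg.Agent.H29.Pauli

open Module QuadraticMap

section Hyp

variable {U : Type*} [AddCommGroup U] [Module (ZMod 2) U] [Module.Finite (ZMod 2) U]

lemma smul_cases (c : ZMod 2) (u : U) : c • u = if c = 0 then 0 else u := by
  have : ∀ c : ZMod 2, c = 0 ∨ c = 1 := by decide
  rcases this c with rfl | rfl <;> simp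

lemma c2 (x : ZMod 2) : x + x = 0 := by decide +revert

theorem exists_hyp (n : ℕ) (hn : finrank (ZMod 2) U = 2 * n) (q : QuadraticForm (ZMod 2) U)
    (hnd : (QuadraticMap.polarBilin q).Nondegenerate)
    (hplus : ∃ W : Submodule (ZMod 2) U, finrank (ZMod 2) ↥W = n ∧ ∀ w ∈ W, q w = 0) :
    ∃ Φ : ((Fin n → ZMod 2) × (Fin n → ZMod 2)) ≃ₗ[ZMod 2] U, ∀ a b, q (Φ (a, b)) = b ⬝ᵥ a := by
  classical
  obtain ⟨W, hW, hW0⟩ := hplus
  set B := QuadraticMap.polarBilin q with hB
  have hBa : ∀ u v, q (u + v) = q u + q v + B u v := by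
    intro u v; rw [hB, QuadraticMap.polarBilin_apply_apply]; exact QuadraticMap.map_add q u v
  have hBs : ∀ u v, B u v = B v u := by
    intro u v
    have h1 := hBa u v
    have h2 := hBa v u
    rw [add_comm v u, h1] at h2
    have : q u + q v = q v + q u := add_comm _ _
    rw [this] at h2
    exact add_left_cancel h2
  have hBW : ∀ u ∈ W, ∀ v ∈ W, B u v = 0 := by
    intro u hu v hv
    have h1 := hBa u v
    rw [hW0 _ (W.add_mem hu hv), hW0 _ hu, hW0 _ hv] at h1
    simpa using h1.symm
  let e := Module.finBasisOfFinrankEq (ZMod 2) W hW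
  -- dual vectors
  let φ : W →ₗ[ZMod 2] Module.Dual (ZMod 2) U := B ∘ₗ W.subtype
  have hφ : Function.Injective φ := by
    rw [injective_iff_map_eq_zero]
    intro w hw
    apply Subtype.ext
    apply hnd.1
    intro y
    exact LinearMap.congr_fun hw y
  have hex : ∀ i : Fin n, ∃ u : U, ∀ j, B (e j : U) u = if j = i then 1 else 0 := by
    intro i
    obtain ⟨η, hη⟩ := (LinearMap.dualMap_surjective_of_injective hφ) (e.coord i)
    refine ⟨(Module.evalEquiv (ZMod 2) U).symm η, fun j => ?_⟩
    have h1 : Module.Dual.eval (ZMod 2) U ((Module.evalEquiv (ZMod 2) U).symm η) = η := by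
      have := (Module.evalEquiv (ZMod 2) U).apply_symm_apply η
      exact this
    have h2 : B (e j : U) ((Module.evalEquiv (ZMod 2) U).symm η) = η (φ (e j)) := by
      conv_rhs => rw [← h1]
      rfl
    rw [h2]
    have h3 := LinearMap.congr_fun hη (e j)
    rw [LinearMap.dualMap_apply] at h3
    rw [h3, Basis.coord_apply, Basis.repr_self, Finsupp.single_apply]
  choose f' hf' using hex
  let c : Fin n → Fin n → ZMod 2 := fun i j => if j < i then B (f' i) (f' j) else if j = i then q (f' i) else 0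
  let s : Fin n → U := fun i => ∑ j, c i j • (e j : U)
  have hs : ∀ i, s i ∈ W := fun i => Submodule.sum_mem _ fun j _ => W.smul_mem _ (e j).2
  let f : Fin n → U := fun i => f' i + s i
  have hBs' : ∀ i k, B (s i) (f' k) = c i k := by
    intro i k
    simp only [s]
    rw [map_sum, LinearMap.sum_apply, Finset.sum_eq_single k]
    · rw [map_smul, LinearMap.smul_apply, hf', if_pos rfl, smul_eq_mul, mul_one]
    · intro j _ hj
      rw [map_smul, LinearMap.smul_apply, hf', if_neg hj, smul_zero]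
    · intro h; exact absurd (Finset.mem_univ k) h
  have hef : ∀ j i, B (e j : U) (f i) = if j = i then 1 else 0 := by
    intro j i
    simp only [f]
    rw [map_add, hf', hBW _ (e j).2 _ (hs i), add_zero]
  have hff : ∀ i k, i ≠ k → B (f i) (f k) = 0 := by
    have key : ∀ i k, k < i → B (f i) (f k) = 0 := by
      intro i k hik
      simp only [f]
      rw [map_add, map_add, LinearMap.add_apply, LinearMap.add_apply, hBs', hBs (f' i) (s k), hBs',
        hBW _ (hs i) _ (hs k), add_zero]
      simp only [c, if_pos hik, if_neg (not_lt.mpr hik.le), if_neg (show ¬ i = k from ne_of_gt hik)]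
      rw [add_zero]; exact c2 _
    intro i k hik
    rcases lt_or_gt_of_ne hik with h | h
    · rw [hBs]; exact key k i h
    · exact key i k h
  have hfq : ∀ i, q (f i) = 0 := by
    intro i
    simp only [f]
    rw [hBa, hW0 _ (hs i), hBs (f' i), hBs']
    simp only [c, lt_irrefl, if_false, if_true]
    rw [add_zero]; exact c2 _
  -- the map
  let L1 : (Fin n → ZMod 2) →ₗ[ZMod 2] U := Fintype.linearCombination (ZMod 2) (fun j => (e j : U))
  let L2 : (Fin n → ZMod 2) →ₗ[ZMod 2] U := Fintype.linearCombination (ZMod 2) f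
  have hL1 : ∀ a, L1 a = ∑ i, a i • (e i : U) := fun a => Fintype.linearCombination_apply _ _ _
  have hL2 : ∀ a, L2 a = ∑ i, a i • f i := fun a => Fintype.linearCombination_apply _ _ _
  have hL1W : ∀ a, L1 a ∈ W := by
    intro a; rw [hL1]; exact Submodule.sum_mem _ fun j _ => W.smul_mem _ (e j).2
  have hB12 : ∀ a j, B (L1 a) (f j) = a j := by
    intro a j
    rw [hL1, map_sum, LinearMap.sum_apply, Finset.sum_eq_single j]
    · rw [map_smul, LinearMap.smul_apply, hef, if_pos rfl, smul_eq_mul, mul_one]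
    · intro i _ hi
      rw [map_smul, LinearMap.smul_apply, hef, if_neg hi, smul_zero]
    · intro h; exact absurd (Finset.mem_univ j) h
  have hB21 : ∀ b j, B (L2 b) (e j : U) = b j := by
    intro b j
    rw [hL2, map_sum, LinearMap.sum_apply, Finset.sum_eq_single j]
    · rw [map_smul, LinearMap.smul_apply, hBs, hef, if_pos rfl, smul_eq_mul, mul_one]
    · intro i _ hi
      rw [map_smul, LinearMap.smul_apply, hBs, hef, if_neg (Ne.symm hi), smul_zero]
    · intro h; exact absurd (Finset.mem_univ j) h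
  have hqL2 : ∀ (S : Finset (Fin n)) (b : Fin n → ZMod 2), q (∑ i ∈ S, b i • f i) = 0 := by
    intro S b
    induction S using Finset.induction_on with
    | empty => simp
    | insert i S hi ih =>
      rw [Finset.sum_insert hi, hBa, ih, QuadraticMap.map_smul, hfq, smul_zero, zero_add, zero_add, map_smul,
        LinearMap.smul_apply, map_sum, Finset.sum_eq_zero, smul_zero]
      intro k hk
      rw [map_smul, hff i k (fun h => hi (h ▸ hk)), smul_zero]
  let Φ0 : ((Fin n → ZMod 2) × (Fin n → ZMod 2)) →ₗ[ZMod 2] U := L1.coprod L2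
  have hΦq : ∀ a b, q (Φ0 (a, b)) = b ⬝ᵥ a := by
    intro a b
    simp only [Φ0, LinearMap.coprod_apply]
    rw [hBa, hW0 _ (hL1W a), hL2 b, hqL2, zero_add, zero_add, map_sum, dotProduct]
    refine Finset.sum_congr rfl fun i _ => ?_
    rw [map_smul, hB12, smul_eq_mul]
  have hΦi : Function.Injective Φ0 := by
    rw [injective_iff_map_eq_zero]
    rintro ⟨a, b⟩ h0
    simp only [Φ0, LinearMap.coprod_apply] at h0
    have hb : b = 0 := by
      funext j
      have h1 := congrArg (fun x => B x (e j : U)) h0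
      simp only [map_add, LinearMap.add_apply, hB21, hBW _ (hL1W a) _ (e j).2, zero_add, map_zero,
        LinearMap.zero_apply] at h1
      exact h1
    subst hb
    have ha : a = 0 := by
      funext j
      have h1 := congrArg (fun x => B x (f j)) h0
      simp only [map_zero, add_zero, hB12, LinearMap.zero_apply] at h1
      exact h1
    subst ha; rfl
  have hfr : finrank (ZMod 2) ((Fin n → ZMod 2) × (Fin n → ZMod 2)) = finrank (ZMod 2) U := by
    rw [hn, Module.finrank_prod, Module.finrank_fin_fun]; ring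
  refine ⟨LinearEquiv.ofInjectiveOfFinrankEq Φ0 hΦi hfr, fun a b => ?_⟩
  exact hΦq a b

end Hyp

section Conc

variable {n : ℕ}

/-- concrete Pauli operators -/
def P0 (u : (Fin n → ZMod 2) × (Fin n → ZMod 2)) : End (ZMod 3) ((Fin n → ZMod 2) → ZMod 3) where
  toFun f := fun x => sg (u.2 ⬝ᵥ (x + u.1)) * f (x + u.1)
  map_add' f g := by funext x; simp only [Pi.add_apply]; ring
  map_smul' c f := by funext x; simp only [Pi.smul_apply, smul_eq_mul, RingHom.id_apply]; ring

lemma P0_apply (u : (Fin n → ZMod 2) × (Fin n → ZMod 2)) (f : (Fin n → ZMod 2) → ZMod 3) (x : Fin n → ZMod 2) :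
    P0 u f x = sg (u.2 ⬝ᵥ (x + u.1)) * f (x + u.1) := rfl

/-- the cocycle -/
def b0 (n : ℕ) : LinearMap.BilinForm (ZMod 2) ((Fin n → ZMod 2) × (Fin n → ZMod 2)) :=
  LinearMap.mk₂ (ZMod 2) (fun u v => u.2 ⬝ᵥ v.1)
    (fun u v w => by simp [add_dotProduct]) (fun c u v => by simp [smul_dotProduct])
    (fun u v w => by simp [dotProduct_add]) (fun c u v => by simp [dotProduct_smul])

lemma b0_apply (u v : (Fin n → ZMod 2) × (Fin n → ZMod 2)) : b0 n u v = u.2 ⬝ᵥ v.1 := rfl

theorem pd0 (n : ℕ) : PD ((Fin n → ZMod 2) → ZMod 3) (b0 n) (P0 (n := n)) where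
  mul u v := by
    apply LinearMap.ext; intro f; funext x
    rw [Module.End.mul_apply, LinearMap.smul_apply, Pi.smul_apply, P0_apply, P0_apply, P0_apply, smul_eq_mul, b0_apply,
      ← mul_assoc, ← mul_assoc, ← sg_add, ← sg_add, Prod.fst_add, Prod.snd_add, ← add_assoc]
    congr 2
    simp only [add_dotProduct, dotProduct_add]
    linear_combination (-1 : ZMod 2) * c2 (u.2 ⬝ᵥ v.1)
  zero := by
    apply LinearMap.ext; intro f; funext x
    rw [P0_apply]; simp
  nd u hu := by
    classical
    by_cases h1 : u.1 = 0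
    · have h2 : u.2 ≠ 0 := fun h => hu (Prod.ext h1 h)
      obtain ⟨i, hi⟩ := Function.ne_iff.mp h2
      refine ⟨(Pi.single i 1, 0), ?_⟩
      rw [b0_apply, b0_apply]
      simpa using hi
    · obtain ⟨i, hi⟩ := Function.ne_iff.mp h1
      refine ⟨(0, Pi.single i 1), ?_⟩
      rw [b0_apply, b0_apply]
      simpa using hi

end Conc

/-- transport of the data along a linear equivalence -/
theorem PD.comp {U U' : Type*} [AddCommGroup U] [Module (ZMod 2) U] [AddCommGroup U'] [Module (ZMod 2) U']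
    {V : Type*} [AddCommGroup V] [Module (ZMod 3) V] {β : LinearMap.BilinForm (ZMod 2) U} {P : U → End (ZMod 3) V}
    (h : PD V β P) (e : U' ≃ₗ[ZMod 2] U) : PD V (β.compl₁₂ e.toLinearMap e.toLinearMap) (P ∘ e) where
  mul u v := by
    simp only [Function.comp, map_add]; exact h.mul _ _
  zero := by simp only [Function.comp, map_zero]; exact h.zero
  nd u hu := by
    obtain ⟨w, hw⟩ := h.nd (e u) (fun h0 => hu (e.injective (by rw [h0, map_zero])))
    refine ⟨e.symm w, ?_⟩
    simp only [LinearMap.compl₁₂_apply, LinearEquiv.coe_coe, LinearEquiv.apply_symm_apply]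
    exact hw

theorem final {K : Type*} [Group K] {U : Type*} [AddCommGroup U] [Module (ZMod 2) U] [Module.Finite (ZMod 2) U]
    (n : ℕ) (hn1 : 1 ≤ n) (hn : Module.finrank (ZMod 2) U = 2 * n) (ρ : Representation (ZMod 2) K U)
    (hρ : Function.Injective ρ) (q : QuadraticForm (ZMod 2) U) (hq : ∀ (k : K) (u : U), q (ρ k u) = q u)
    (hnd : (QuadraticMap.polarBilin q).Nondegenerate)
    (hplus : ∃ W : Submodule (ZMod 2) U, Module.finrank (ZMod 2) ↥W = n ∧ ∀ w ∈ W, q w = 0) :
    ∃ (R : Type) (_ : Group R) (_ : Finite R) (Q : Subgroup R) (hN : Q.Normal) (e : R ⧸ Q ≃* K)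
      (χ : ↥Q →* Multiplicative U), Cfsg.IsExtraspecial 2 ↥Q ∧ Nat.card ↥Q = 2 ^ (2 * n + 1) ∧
      Function.Surjective χ ∧ χ.ker = Subgroup.center ↥Q ∧
      (∀ (r : R) (a : ↥Q), χ ⟨r * a * r⁻¹, hN.conj_mem (a : R) a.2 r⟩ =
        Multiplicative.ofAdd (ρ (e (r : R ⧸ Q)) (Multiplicative.toAdd (χ a)))) ∧
      ∀ a : ↥Q, a * a = 1 ↔ q (Multiplicative.toAdd (χ a)) = 0 := by
  classical
  obtain ⟨Φ, hΦ⟩ := exists_hyp n hn q hnd hplus
  haveI : Finite U := Module.finite_of_finite (ZMod 2)
  haveI : Fintype U := Fintype.ofFinite U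
  have h := (pd0 n).comp Φ.symm
  have hfr : finrank (ZMod 3) ((Fin n → ZMod 2) → ZMod 3) = 2 ^ n := by
    rw [Module.finrank_fintype_fun_eq_card, Fintype.card_fun, ZMod.card, Fintype.card_fin]
  have hcU : Fintype.card U = 2 ^ (2 * n) := by
    rw [Module.card_eq_pow_finrank (K := ZMod 2), hn, ZMod.card]
  have hV : (finrank (ZMod 3) ((Fin n → ZMod 2) → ZMod 3) : ZMod 3) ≠ 0 := by
    rw [hfr, Nat.cast_pow]
    exact pow_ne_zero _ (by decide)
  refine h.main hV (by rw [hcU, hfr]; ring) ρ hρ q hq ?_ n hn1 hcU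
  intro u
  have h1 : (LinearMap.compl₁₂ (b0 n) Φ.symm.toLinearMap Φ.symm.toLinearMap) u u =
      (Φ.symm u).2 ⬝ᵥ (Φ.symm u).1 := rfl
  rw [h1, ← hΦ]
  simp

end Cfsg.Agent.H29.Pauli
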