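import Mathlib

/-!
The Sylow 2-subgroup of `SL(5,2)` (unitriangular matrices for the order `0 < 2 < 3 < 4 < 1` of the
coordinates) and its centre.
-/

set_option autoImplicit false

namespace Cfsg.Agent.H29

open Matrix

/-- position of the coordinate in the flag `0,2,3,4,1` -/
def rk : Fin 5 → ℕ := ![0, 4, 1, 2, 3]

abbrev SL52 := Matrix.SpecialLinearGroup (Fin 5) (ZMod 2)

theorem rk_injective : Function.Injective rk := by decide

/-- unitriangular matrices for the order `rk` -/
def IsUni (g : Matrix (Fin 5) (Fin 5) (ZMod 2)) : Prop :=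
  (∀ i j, rk j < rk i → g i j = 0) ∧ ∀ i, g i i = 1

theorem IsUni.mul {a b : Matrix (Fin 5) (Fin 5) (ZMod 2)} (ha : IsUni a) (hb : IsUni b) :
    IsUni (a * b) := by
  obtain ⟨ha, ha'⟩ := ha
  obtain ⟨hb, hb'⟩ := hb
  refine ⟨fun i j h => ?_, fun i => ?_⟩
  · rw [Matrix.mul_apply]
    apply Finset.sum_eq_zero
    intro k _
    by_cases h1 : rk k < rk i
    · rw [ha i k h1, zero_mul]
    · rw [hb k j (by omega), mul_zero]
  · rw [Matrix.mul_apply, Finset.sum_eq_single i]
    · rw [ha', hb', one_mul]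
    · intro k _ hk
      rcases lt_trichotomy (rk k) (rk i) with h1 | h1 | h1
      · rw [ha i k h1, zero_mul]
      · exact absurd (rk_injective h1) hk
      · rw [hb k i h1, mul_zero]
    · intro h; exact absurd (Finset.mem_univ i) h

theorem IsUni.one : IsUni (1 : Matrix (Fin 5) (Fin 5) (ZMod 2)) := by
  refine ⟨fun i j h => ?_, fun i => by simp⟩
  have : i ≠ j := by rintro rfl; exact lt_irrefl _ h
  simp [this]

/-- unitriangular subgroup for the order `rk` -/
def uni : Subgroup SL52 where
  carrier := {g | IsUni (g : Matrix (Fin 5) (Fin 5) (ZMod 2))}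
  one_mem' := IsUni.one
  mul_mem' := fun ha hb => ha.mul hb
  inv_mem' := by
    intro a ha
    have hpow : ∀ n : ℕ, IsUni ((a ^ n : SL52) : Matrix (Fin 5) (Fin 5) (ZMod 2)) := by
      intro n
      induction n with
      | zero => rw [pow_zero]; exact IsUni.one
      | succ n ih => rw [pow_succ]; exact ih.mul ha
    have h1 : a⁻¹ = a ^ (orderOf a - 1) := by
      apply inv_eq_of_mul_eq_one_right
      rw [← pow_succ', Nat.sub_add_cancel (orderOf_pos a), pow_orderOf_eq_one]
    rw [h1]
    exact hpow _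

theorem mem_uni {g : SL52} : g ∈ uni ↔ IsUni (g : Matrix (Fin 5) (Fin 5) (ZMod 2)) := Iff.rfl

abbrev Idx := {p : Fin 5 × Fin 5 // rk p.1 < rk p.2}

/-- matrix with given strictly upper entries -/
def mat (f : Idx → ZMod 2) : Matrix (Fin 5) (Fin 5) (ZMod 2) :=
  Matrix.of fun i j => if h : rk i < rk j then f ⟨(i, j), h⟩ else if i = j then 1 else 0

theorem mat_isUni (f : Idx → ZMod 2) : IsUni (mat f) := by
  refine ⟨fun i j h => ?_, fun i => ?_⟩
  · simp only [mat, Matrix.of_apply]
    rw [dif_neg (by omega), if_neg]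
    rintro rfl; exact lt_irrefl _ h
  · simp [mat]

/-- the permutation sorting the coordinates -/
def srt : Equiv.Perm (Fin 5) where
  toFun := ![0, 2, 3, 4, 1]
  invFun := ![0, 4, 1, 2, 3]
  left_inv := by decide
  right_inv := by decide

theorem rk_srt : ∀ i : Fin 5, rk (srt i) = i := by decide

theorem IsUni.det {g : Matrix (Fin 5) (Fin 5) (ZMod 2)} (h : IsUni g) : g.det = 1 := by
  rw [← Matrix.det_submatrix_equiv_self srt g]
  rw [Matrix.det_of_isUpperTriangular]
  · apply Finset.prod_eq_one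
    intro i _
    exact h.2 _
  · intro i j hij
    apply h.1
    rw [rk_srt, rk_srt]
    exact hij

/-- `uni` is parametrized by the strictly upper entries -/
def uniEquiv : uni ≃ (Idx → ZMod 2) where
  toFun g p := (g : SL52) p.1.1 p.1.2
  invFun f := ⟨⟨mat f, (mat_isUni f).det⟩, mat_isUni f⟩
  left_inv := by
    rintro ⟨g, hg⟩
    apply Subtype.ext
    apply Subtype.ext
    funext i j
    simp only [mat, Matrix.of_apply]
    split_ifs with h1 h2
    · rfl
    · subst h2; exact (hg.2 i).symm
    · exact (hg.1 i j (by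
        rcases lt_trichotomy (rk i) (rk j) with h | h | h
        · exact absurd h h1
        · exact absurd (rk_injective h) h2
        · exact h)).symm
  right_inv := by
    intro f
    funext p
    change (mat f) p.1.1 p.1.2 = f p
    simp only [mat, Matrix.of_apply]
    rw [dif_pos p.2]

theorem card_uni : Nat.card uni = 2 ^ 10 := by
  rw [Nat.card_congr uniEquiv, Nat.card_eq_fintype_card, Fintype.card_fun, ZMod.card]
  congr 1

theorem card_SL52 : Nat.card SL52 = 2 ^ 10 * 9765 := by
  have h1 : Nat.card (GL (Fin 5) (ZMod 2)) = 2 ^ 10 * 9765 := by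
    have h0 := Matrix.card_GL_field (𝔽 := ZMod 2) 5
    simp only [ZMod.card, Fin.prod_univ_five] at h0
    refine h0.trans ?_
    norm_num
  rw [← h1]
  apply Nat.card_congr
  refine Equiv.ofBijective (fun g : SL52 => Matrix.SpecialLinearGroup.toGL g) ⟨?_, ?_⟩
  · exact Matrix.SpecialLinearGroup.toGL_injective
  · intro g
    have hd : (g : Matrix (Fin 5) (Fin 5) (ZMod 2)).det = 1 := by
      have h2 : IsUnit ((g : Matrix (Fin 5) (Fin 5) (ZMod 2)).det) :=
        (Matrix.isUnit_iff_isUnit_det _).mp g.isUnit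
      have h3 : ∀ x : ZMod 2, IsUnit x → x = 1 := by decide
      exact h3 _ h2
    exact ⟨⟨g.1, hd⟩, Units.ext (Matrix.SpecialLinearGroup.coe_GL_coe_matrix (⟨g.1, hd⟩ : SL52))⟩

theorem uni_index_odd : ¬ 2 ∣ uni.index := by
  have h1 := uni.card_mul_index
  rw [card_uni, card_SL52] at h1
  have h2 : uni.index = 9765 := Nat.eq_of_mul_eq_mul_left (by norm_num) h1
  rw [h2]; norm_num

/-- elementary transvections in `uni` -/
def tv (i j : Fin 5) (h : rk i < rk j) : SL52 :=
  ⟨Matrix.transvection i j 1, Matrix.det_transvection_of_ne i j (by rintro rfl; exact lt_irrefl _ h) 1⟩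

theorem tv_mem (i j : Fin 5) (h : rk i < rk j) : tv i j h ∈ uni := by
  rw [mem_uni]
  have hij : i ≠ j := by rintro rfl; exact lt_irrefl _ h
  refine ⟨fun k l hkl => ?_, fun k => ?_⟩
  · change Matrix.transvection i j (1 : ZMod 2) k l = 0
    rw [Matrix.transvection, Matrix.add_apply, Matrix.one_apply, Matrix.single_apply, if_neg, if_neg,
      add_zero]
    · rintro ⟨rfl, rfl⟩; omega
    · rintro rfl; exact lt_irrefl _ hkl
  · change Matrix.transvection i j (1 : ZMod 2) k k = 1
    rw [Matrix.transvection, Matrix.add_apply, Matrix.one_apply, Matrix.single_apply, if_pos rfl,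
      if_neg, add_zero]
    rintro ⟨rfl, h2⟩
    exact hij h2.symm

theorem tv_central {u : SL52} (hu : u ∈ uni) : u * tv 0 1 (by decide) = tv 0 1 (by decide) * u := by
  have h0 : ∀ k : Fin 5, k ≠ 0 → (u : Matrix (Fin 5) (Fin 5) (ZMod 2)) k 0 = 0 := by
    intro k hk
    refine hu.1 k 0 ?_
    revert k; decide
  have h1 : ∀ l : Fin 5, l ≠ 1 → (u : Matrix (Fin 5) (Fin 5) (ZMod 2)) 1 l = 0 := by
    intro l hl
    refine hu.1 1 l ?_
    revert l; decide
  apply Subtype.ext
  change (u : Matrix (Fin 5) (Fin 5) (ZMod 2)) * Matrix.transvection 0 1 1 =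
      Matrix.transvection 0 1 1 * (u : Matrix (Fin 5) (Fin 5) (ZMod 2))
  rw [Matrix.transvection, Matrix.mul_add, Matrix.add_mul, Matrix.mul_one, Matrix.one_mul]
  congr 1
  ext k l
  rw [Matrix.mul_apply, Matrix.mul_apply, Finset.sum_eq_single 0, Finset.sum_eq_single 1]
  · rw [Matrix.single_apply, Matrix.single_apply]
    by_cases hk : k = 0
    · by_cases hl : l = 1
      · subst hk hl
        simp [hu.2]
      · subst hk
        simp [h1 l hl, Ne.symm hl]
    · by_cases hl : l = 1
      · subst hl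
        simp [h0 k hk, Ne.symm hk]
      · simp [Ne.symm hl, Ne.symm hk]
  · intro b _ hb
    rw [Matrix.single_apply, if_neg, zero_mul]
    rintro ⟨_, h4⟩; exact hb h4.symm
  · intro h4; exact absurd (Finset.mem_univ _) h4
  · intro b _ hb
    rw [Matrix.single_apply, if_neg, mul_zero]
    rintro ⟨h4, _⟩; exact hb h4.symm
  · intro h4; exact absurd (Finset.mem_univ _) h4

/-- commuting with `1 + E_ij` -/
theorem comm_tv {g : SL52} {i j : Fin 5} (h : rk i < rk j) (hc : g * tv i j h = tv i j h * g) :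
    ∀ k l, (g : Matrix (Fin 5) (Fin 5) (ZMod 2)) k i * (if j = l then 1 else 0) =
      (if i = k then 1 else 0) * (g : Matrix (Fin 5) (Fin 5) (ZMod 2)) j l := by
  intro k l
  have h1 : (g : Matrix (Fin 5) (Fin 5) (ZMod 2)) * Matrix.transvection i j 1 =
      Matrix.transvection i j 1 * (g : Matrix (Fin 5) (Fin 5) (ZMod 2)) := congrArg Subtype.val hc
  rw [Matrix.transvection, Matrix.mul_add, Matrix.add_mul, Matrix.mul_one, Matrix.one_mul] at h1
  have h2 := add_left_cancel h1
  have h3 := congrFun (congrFun h2 k) l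
  rw [Matrix.mul_apply, Matrix.mul_apply, Finset.sum_eq_single i, Finset.sum_eq_single j] at h3
  · simpa [Matrix.single_apply] using h3
  · intro b _ hb
    rw [Matrix.single_apply, if_neg, zero_mul]
    rintro ⟨_, h4⟩; exact hb h4.symm
  · intro h4; exact absurd (Finset.mem_univ _) h4
  · intro b _ hb
    rw [Matrix.single_apply, if_neg, mul_zero]
    rintro ⟨h4, _⟩; exact hb h4.symm
  · intro h4; exact absurd (Finset.mem_univ _) h4

theorem rk_lt_one : ∀ l : Fin 5, l ≠ 1 → rk l < rk 1 := by decide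

theorem rk_zero_lt : ∀ l : Fin 5, l ≠ 0 → rk 0 < rk l := by decide

/-- centralizing the unitriangular group and being in it -/
theorem eq_of_central {g : SL52} (hg : g ∈ uni) (hc : ∀ u ∈ uni, g * u = u * g) :
    g = 1 ∨ g = tv 0 1 (by decide) := by
  have hz : ∀ k l : Fin 5, k ≠ l → ¬ (k = 0 ∧ l = 1) →
      (g : Matrix (Fin 5) (Fin 5) (ZMod 2)) k l = 0 := by
    intro k l hkl hn
    by_cases hl : l = 1
    · subst hl
      -- row `k` with `k ≠ 0`: use `j = k`, `i = 0`
      have hk0 : k ≠ 0 := fun h => hn ⟨h, rfl⟩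
      have hr : rk 0 < rk k := rk_zero_lt k hk0
      have h1 := comm_tv hr (hc _ (tv_mem 0 k hr)) 0 1
      rw [if_neg hkl, if_pos rfl, mul_zero, one_mul] at h1
      exact h1.symm
    · -- column `l ≠ 1`: use `i = l`, `j = 1`
      have hr : rk l < rk 1 := rk_lt_one l hl
      have h1 := comm_tv hr (hc _ (tv_mem l 1 hr)) k 1
      rw [if_pos rfl, if_neg (Ne.symm hkl), zero_mul, mul_one] at h1
      exact h1
  have hent : ∀ x : ZMod 2, x = 0 ∨ x = 1 := by decide
  rcases hent ((g : Matrix (Fin 5) (Fin 5) (ZMod 2)) 0 1) with h01 | h01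
  · left
    apply Subtype.ext
    funext k l
    rw [Matrix.SpecialLinearGroup.coe_one, Matrix.one_apply]
    split_ifs with h
    · subst h; exact hg.2 k
    · by_cases h2 : k = 0 ∧ l = 1
      · obtain ⟨rfl, rfl⟩ := h2; exact h01
      · exact hz k l h h2
  · right
    apply Subtype.ext
    funext k l
    change _ = Matrix.transvection 0 1 (1 : ZMod 2) k l
    rw [Matrix.transvection, Matrix.add_apply, Matrix.one_apply, Matrix.single_apply]
    by_cases h : k = l
    · subst h
      rw [if_pos rfl, if_neg (by rintro ⟨rfl, h3⟩; exact absurd h3 (by decide)), add_zero]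
      exact hg.2 k
    · rw [if_neg h, zero_add]
      by_cases h2 : 0 = k ∧ 1 = l
      · rw [if_pos h2]; obtain ⟨rfl, rfl⟩ := h2; exact h01
      · rw [if_neg h2]; exact hz k l h (fun h3 => h2 ⟨h3.1.symm, h3.2.symm⟩)

end Cfsg.Agent.H29
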